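/-
Baer's trick and Bender's lemma: for `p` odd, a `p'`-group `X` normalized by a `p`-group `E`, both acting on a
`p`-group `P`, centralizes `P` as soon as it centralizes `C_P(E)`.
-/
import Cfsg.Agent.Lib.G.Critical
import Cfsg.Agent.Lib.G.PLen
import Cfsg.Agent.Lib.G.GenCent
import Cfsg.Agent.Lib.G.Transfer

set_option autoImplicit false
set_option linter.unusedSectionVars false
set_option linter.style.haveILetI false
set_option linter.unusedVariables false

namespace CA.Loc

open Cfsg Subgroup CA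
open scoped commutatorElement

theorem trivial_of_fixed {N V : Type*} [Group N] [Finite N] [AddCommGroup V] [Finite V]
    [DistribMulAction N V] {p m : ℕ} [hp : Fact p.Prime] (hV : Nat.card V = p ^ m) (X E : Subgroup N)
    (hE : IsPGroup p E) (hX : (Nat.card X).Coprime p) (hn : E ≤ 𝐍(X))
    (h : ∀ v : V, (∀ e ∈ E, e • v = v) → ∀ x ∈ X, x • v = v) : ∀ x ∈ X, ∀ v : V, x • v = v := by
  classical
  haveI := Fintype.ofFinite X
  let Ψ : V →+ V := ∑ x : X, DistribSMul.toAddMonoidHom V (x : N)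
  have hΨ : ∀ v, Ψ v = ∑ x : X, (x : N) • v := fun v => by
    simp [Ψ, AddMonoidHom.finsetSum_apply]
  have hc : ∀ e ∈ E, ∀ v, e • Ψ v = Ψ (e • v) := fun e he v => by
    rw [hΨ, hΨ, Finset.smul_sum]
    refine Fintype.sum_equiv (X.normalizerMonoidHom ⟨e, hn he⟩).toEquiv _ _ fun x => ?_
    have : (((X.normalizerMonoidHom ⟨e, hn he⟩).toEquiv x : X) : N) = e * x * e⁻¹ := rfl
    rw [this, ← mul_smul, ← mul_smul]; congr 1; group
  have hT : ∀ t, Ψ t = 0 → t = 0 := by
    by_contra hne
    push Not at hne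
    obtain ⟨t0, ht0, ht0'⟩ := hne
    letI : MulAction E Ψ.ker :=
      { smul := fun e t => ⟨(e : N) • (t : V), by
          rw [AddMonoidHom.mem_ker, ← hc e e.2, (AddMonoidHom.mem_ker).1 t.2, smul_zero]⟩
        one_smul := fun t => Subtype.ext (one_smul N (t : V))
        mul_smul := fun a b t => Subtype.ext (mul_smul (a : N) (b : N) (t : V)) }
    have hd : p ∣ Nat.card Ψ.ker := by
      have h1 : Nat.card Ψ.ker ∣ p ^ m := hV ▸ AddSubgroup.card_addSubgroup_dvd_card _
      obtain ⟨j, -, hj⟩ := (Nat.dvd_prime_pow hp.out).1 h1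
      rcases j with _ | j
      · exfalso
        have : Ψ.ker = ⊥ := AddSubgroup.card_eq_one.1 (by simpa using hj)
        have h2 : t0 ∈ Ψ.ker := ht0
        rw [this] at h2
        exact ht0' h2
      · rw [hj]; exact dvd_pow_self p (Nat.succ_ne_zero j)
    obtain ⟨b, hb, hb0⟩ := hE.exists_fixed_point_of_prime_dvd_card_of_fixed_point Ψ.ker hd
      (a := 0) (fun e => Subtype.ext (smul_zero (e : N)))
    have hb1 : ∀ x ∈ X, x • (b : V) = b := h b fun e he => congrArg Subtype.val (hb ⟨e, he⟩)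
    have hb2 : Nat.card X • (b : V) = 0 := by
      have := (AddMonoidHom.mem_ker).1 b.2
      rw [hΨ, Finset.sum_congr rfl (fun (x : X) _ => hb1 x x.2), Finset.sum_const, Finset.card_univ,
        ← Nat.card_eq_fintype_card] at this
      exact this
    have hb3 : addOrderOf (b : V) = 1 :=
      Nat.eq_one_of_dvd_coprimes (hX.pow_right m) (addOrderOf_dvd_of_nsmul_eq_zero hb2)
        (hV ▸ addOrderOf_dvd_natCard _)
    exact hb0 (Subtype.ext (AddMonoid.addOrderOf_eq_one_iff.1 hb3).symm)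
  intro x hx v
  have : Ψ (x • v - v) = 0 := by
    rw [map_sub, hΨ, hΨ, sub_eq_zero]
    refine Fintype.sum_equiv (Equiv.mulRight (⟨x, hx⟩ : X)) _ _ fun y => ?_
    simp [mul_smul]
  exact sub_eq_zero.1 (hT _ this)

/-- The Baer abelian group of a group of class two and odd order. -/
def Baer (H : Type*) := H

section baer
open scoped IsMulCommutative
variable {H : Type*} [Group H]

/-- The commutator, as an element of the centre. -/
def bcm (hH : ∀ a b c : H, c * ⁅a, b⁆ = ⁅a, b⁆ * c) (a b : H) : center H :=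
  ⟨⁅a, b⁆, mem_center_iff.2 fun c => hH a b c⟩

variable (hH : ∀ a b c : H, c * ⁅a, b⁆ = ⁅a, b⁆ * c)

theorem bcm_mul_right (c a b : H) : bcm hH c (a * b) = bcm hH c a * bcm hH c b := by
  apply Subtype.ext
  change ⁅c, a * b⁆ = ⁅c, a⁆ * ⁅c, b⁆
  have := hH c b a
  calc ⁅c, a * b⁆ = ⁅c, a⁆ * (a * ⁅c, b⁆) * a⁻¹ := by simp only [commutatorElement_def]; group
    _ = _ := by rw [this]; group

theorem bcm_symm (a b : H) : bcm hH b a = (bcm hH a b)⁻¹ := by
  apply Subtype.ext
  change ⁅b, a⁆ = ⁅a, b⁆⁻¹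
  simp

theorem bcm_mul_left (c a b : H) : bcm hH (a * b) c = bcm hH a c * bcm hH b c := by
  rw [bcm_symm hH c, bcm_mul_right, mul_inv_rev, ← bcm_symm, ← bcm_symm, mul_comm]

theorem bcm_center_right (c : H) (z : center H) : bcm hH c z = 1 := by
  apply Subtype.ext
  change ⁅c, (z : H)⁆ = 1
  rw [commutatorElement_eq_one_iff_mul_comm]
  exact mem_center_iff.1 z.2 c

theorem bcm_center_left (c : H) (z : center H) : bcm hH z c = 1 := by
  rw [bcm_symm, bcm_center_right, inv_one]

theorem bcm_one_right (c : H) : bcm hH c 1 = 1 := bcm_center_right hH c 1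
theorem bcm_one_left (c : H) : bcm hH 1 c = 1 := bcm_center_left hH c 1

/-- The Baer group structure. -/
@[reducible] def baerGroup (k : ℕ) (hk : ∀ z : center H, z ^ (2 * k) = z) : AddCommGroup (Baer H) :=
  letI : Add (Baer H) := ⟨fun a b : H => (a * b * (bcm hH b a ^ k : center H) : H)⟩
  letI : Zero (Baer H) := ⟨(1 : H)⟩
  letI : Neg (Baer H) := ⟨fun a : H => (a⁻¹ : H)⟩
  { add_assoc := fun a b c : H => by
      change (a * b * (bcm hH b a ^ k : center H) * c *
          (bcm hH c (a * b * (bcm hH b a ^ k : center H)) ^ k : center H) : H) =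
        a * (b * c * (bcm hH c b ^ k : center H)) *
          (bcm hH (b * c * (bcm hH c b ^ k : center H)) a ^ k : center H)
      rw [bcm_mul_right, bcm_mul_right, bcm_center_right, bcm_mul_left, bcm_mul_left,
        bcm_center_left, mul_one, mul_one, mul_assoc (a * b), ← mem_center_iff.1 (bcm hH b a ^ k).2 c]
      simp only [mul_assoc, ← Subgroup.coe_mul]
      congr 4
      rw [mul_pow, mul_pow, mul_comm (bcm hH c b ^ k), mul_assoc]
    zero_add := fun a : H => by
      change (1 * a * (bcm hH a 1 ^ k : center H) : H) = a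
      simp [bcm_one_right]
    add_zero := fun a : H => by
      change (a * 1 * (bcm hH 1 a ^ k : center H) : H) = a
      simp [bcm_one_left]
    nsmul := nsmulRec
    zsmul := zsmulRec
    neg_add_cancel := fun a : H => by
      change (a⁻¹ * a * (bcm hH a a⁻¹ ^ k : center H) : H) = 1
      have : bcm hH a a⁻¹ = 1 := Subtype.ext (by change ⁅a, a⁻¹⁆ = 1; simp [commutatorElement_def])
      simp [this]
    add_comm := fun a b : H => by
      change (a * b * (bcm hH b a ^ k : center H) : H) = b * a * (bcm hH a b ^ k : center H)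
      have h1 : a * b = b * a * (bcm hH a b : H) := by
        rw [mem_center_iff.1 (bcm hH a b).2]
        change a * b = ⁅a, b⁆ * (b * a)
        simp only [commutatorElement_def]; group
      rw [h1, mul_assoc (b * a), ← Subgroup.coe_mul, bcm_symm hH a b]
      congr 2
      have := hk (bcm hH a b)
      rw [two_mul, pow_add] at this
      rw [inv_pow, mul_inv_eq_iff_eq_mul, this] }

/-- Automorphisms act additively on the Baer group. -/
@[reducible] def baerAct (k : ℕ) (hk : ∀ z : center H, z ^ (2 * k) = z) :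
    letI := baerGroup hH k hk
    DistribMulAction (MulAut H) (Baer H) :=
  letI := baerGroup hH k hk
  { smul := fun φ (a : H) => (φ a : H)
    one_smul := fun a => rfl
    mul_smul := fun φ ψ a => rfl
    smul_zero := fun φ => map_one φ
    smul_add := fun φ (a b : H) => by
      change φ (a * b * (bcm hH b a ^ k : center H)) =
        φ a * φ b * (bcm hH (φ b) (φ a) ^ k : center H)
      simp [bcm, map_commutatorElement] }

end baer

variable {G : Type*} [Group G] [Finite G] {p : ℕ} [hp : Fact p.Prime] {P K X E : Subgroup G}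

theorem cents_of_class_two (h2 : p ≠ 2) (hK : IsPGroup p K) (hc : ⁅K, K⁆ ≤ 𝐂(K)) (hE : IsPGroup p E)
    (hX : PiGrp {p}ᶜ X) (nE : E ≤ 𝐍(K)) (nX : X ≤ 𝐍(K)) (hn : E ≤ 𝐍(X)) (h : K ⊓ 𝐂(E) ≤ 𝐂(X)) :
    X ≤ 𝐂(K) := by
  obtain ⟨m, hm⟩ := IsPGroup.iff_card.1 hK
  have hodd : Odd (Nat.card K) := hm ▸ (hp.out.odd_of_ne_two h2).pow
  obtain ⟨j, hj⟩ := hodd
  have hH : ∀ a b c : K, c * ⁅a, b⁆ = ⁅a, b⁆ * c := fun a b c =>
    Subtype.ext (mem_cent_iff.1 (hc (commutator_mem_commutator a.2 b.2)) c c.2)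
  have hk : ∀ z : center K, z ^ (2 * (j + 1)) = z := fun z => by
    apply Subtype.ext
    have : (z : K) ^ Nat.card K = 1 := pow_card_eq_one'
    rw [hj] at this
    change (z : K) ^ (2 * (j + 1)) = z
    rw [show 2 * (j + 1) = 2 * j + 1 + 1 by ring, pow_succ, this, one_mul]
  letI := baerGroup hH (j + 1) hk
  letI := baerAct hH (j + 1) hk
  letI : DistribMulAction 𝐍(K) (Baer K) := DistribMulAction.compHom _ K.normalizerMonoidHom
  haveI : Finite (Baer K) := inferInstanceAs (Finite K)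
  have hs : ∀ (g : 𝐍(K)) (v : K), ((show K from (g • (show Baer K from v) : Baer K)) : G) = g * v * g⁻¹ :=
    fun g v => rfl
  have key := trivial_of_fixed (N := 𝐍(K)) (V := Baer K) (p := p) (m := m) hm (X.subgroupOf _)
    (E.subgroupOf _) (hE.comap_subtype)
    (by rw [card_subgroupOf_of_le nX]; exact (piGrp_compl_singleton_iff_coprime hp.out).1 hX)
    (by rw [← subgroupOf_norm nX]; exact fun g hg => hn hg) (fun (v : K) hv x hx => by
      apply Subtype.ext
      refine (hs x v).trans ?_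
      have hv' : (v : G) ∈ 𝐂(E) := mem_cent_iff.2 fun e he => by
        have := congrArg Subtype.val (hv ⟨e, nE he⟩ he)
        have h3 := (hs ⟨e, nE he⟩ v).symm.trans this
        rw [← mul_inv_eq_iff_eq_mul]; exact h3
      have := mem_cent_iff.1 (h ⟨v.2, hv'⟩) x hx
      rw [this]; simp)
  refine cents_iff.2 fun x hx v hv => ?_
  have := congrArg Subtype.val (key ⟨x, nX hx⟩ hx (show K from ⟨v, hv⟩))
  have h3 := (hs ⟨x, nX hx⟩ ⟨v, hv⟩).symm.trans this
  rw [← mul_inv_eq_iff_eq_mul]; exact h3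

/-- Bender's lemma. -/
theorem cents_of_cent_odd (h2 : p ≠ 2) (hP : IsPGroup p P) (hE : IsPGroup p E)
    (hX : PiGrp {p}ᶜ X) (nE : E ≤ 𝐍(P)) (nX : X ≤ 𝐍(P)) (hn : E ≤ 𝐍(X)) (h : P ⊓ 𝐂(E) ≤ 𝐂(X)) :
    X ≤ 𝐂(P) := by
  obtain ⟨K, hK⟩ := exists_critical hP
  exact hK.cents (copAct_p_left nX (hP.piGrp hp.out) hX)
    (cents_of_class_two h2 (hP.to_le hK.le) hK.class_two hE hX (hK.charIn.norms nE)
      (hK.charIn.norms nX) hn ((inf_le_inf_right _ hK.le).trans h))

/-- The same conclusion when `[P, E]` centralizes `P` and `E`. -/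
theorem cents_of_cent_class_two (hP : IsPGroup p P) (hE : IsPGroup p E)
    (hX : PiGrp {p}ᶜ X) (nE : E ≤ 𝐍(P)) (nX : X ≤ 𝐍(P)) (hn : E ≤ 𝐍(X)) (h : P ⊓ 𝐂(E) ≤ 𝐂(X))
    (h1 : ⁅P, E⁆ ≤ 𝐂(P)) (h2 : ⁅P, E⁆ ≤ 𝐂(E)) : X ≤ 𝐂(P) := by
  have cX : CopAct X E := copAct_p_right hn hX (hE.piGrp hp.out)
  have cP : CopAct P X := copAct_p_left nX (hP.piGrp hp.out) hX
  have h3 : ⁅P, E⁆ ≤ 𝐂(X) := (le_inf (comm_le_left nE) h2).trans h
  rw [← cX.comm_sup_cent]
  refine sup_le ?_ ?_
  · have hZ : ⁅⁅X, E⁆, P⁆ ≤ 𝐙(P) ⊓ 𝐂(X) := by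
      refine three_subgroup_mod (A := E) (B := P) (C := X)
        (norms_inf (norms_center nE) (norms_cent hn))
        (norms_of_cents (cents_symm (inf_le_left.trans inf_le_right)))
        (norms_inf (norms_center nX) (norms_cent le_normalizer)) ?_ ?_
      · rw [commutator_comm E P, comm_eq_bot_iff.2 h3]; exact bot_le
      · exact (commutator_mono (comm_le_left nX) le_rfl).trans
          (le_inf (le_inf (comm_le_left nE) h1) h3)
    rw [commutator_comm] at hZ
    exact (cP.right cX.comm_le).cents_of_comm_le hZ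
      (cX.comm_le.trans (cents_symm inf_le_right))
  · exact (cP.right inf_le_left).cents_of_axb (hP.piGrp hp.out) (hE.piGrp hp.out) nE inf_le_right
      (inf_le_left.trans (cents_symm h)) (hX.inf_left _)

end CA.Loc
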