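/-
The Thompson subgroup `J_e` (elementary abelian subgroups of maximal order) and Glauberman's replacement theorem.
-/
import Cfsg.Agent.Lib.Loc.Baer

set_option autoImplicit false
set_option linter.unusedSectionVars false
set_option linter.style.haveILetI false
set_option linter.unusedVariables false

namespace CA.Loc

open Cfsg Subgroup CA
open scoped commutatorElement

section core
open scoped IsMulCommutative
variable {H : Type*} [Group H] (hH : ∀ a b c : H, c * ⁅a, b⁆ = ⁅a, b⁆ * c)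

theorem bcm_inv_right (c a : H) : bcm hH c a⁻¹ = (bcm hH c a)⁻¹ := by
  rw [eq_inv_iff_mul_eq_one, ← bcm_mul_right, inv_mul_cancel, bcm_one_right]

theorem bcm_inv_left (c a : H) : bcm hH a⁻¹ c = (bcm hH a c)⁻¹ := by
  rw [eq_inv_iff_mul_eq_one, ← bcm_mul_left, inv_mul_cancel, bcm_one_left]

theorem bcm_phi (x Q : H) (σ : MulAut H) (hσ : ∀ u v, bcm hH (σ u) (σ v) = bcm hH u v)
    (h1 : σ (σ Q * Q⁻¹) = σ Q * Q⁻¹) : bcm hH (x * (σ x)⁻¹) Q = bcm hH x (σ Q * Q⁻¹) := by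
  rw [← hσ x (σ Q * Q⁻¹), h1, bcm_mul_left, bcm_mul_right, bcm_inv_left, bcm_inv_right, hσ]

theorem bcm_phi_sq (x : H) (σ τ : MulAut H) (hc : σ (τ x) = τ (σ x))
    (hσ : ∀ u v, bcm hH (σ u) (σ v) = bcm hH u v) (hτ : ∀ u v, bcm hH (τ u) (τ v) = bcm hH u v)
    (h1 : σ (σ (x * (τ x)⁻¹) * (x * (τ x)⁻¹)⁻¹) = σ (x * (τ x)⁻¹) * (x * (τ x)⁻¹)⁻¹)
    (h2 : τ (τ (x * (σ x)⁻¹) * (x * (σ x)⁻¹)⁻¹) = τ (x * (σ x)⁻¹) * (x * (σ x)⁻¹)⁻¹) :
    bcm hH (x * (σ x)⁻¹) (x * (τ x)⁻¹) ^ 2 = 1 := by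
  have e1 := bcm_phi hH x _ σ hσ h1
  have e2 := bcm_phi hH x _ τ hτ h2
  have e3 : x * (σ x)⁻¹ * σ (x * (τ x)⁻¹) = x * (τ x)⁻¹ * τ (x * (σ x)⁻¹) := by
    simp [hc, mul_assoc]
  have e4 := congrArg (bcm hH x) e3
  generalize x * (σ x)⁻¹ = P at e1 e2 e4 ⊢
  generalize x * (τ x)⁻¹ = Q at e1 e2 e4 ⊢
  rw [bcm_mul_right, bcm_mul_right] at e4
  rw [bcm_mul_right, bcm_inv_right] at e1 e2
  have e5 : bcm hH P Q = bcm hH Q P := by
    rw [e1, e2, mul_inv_eq_iff_eq_mul, mul_right_comm, eq_mul_inv_iff_mul_eq, mul_comm, e4, mul_comm]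
  rw [pow_two]
  nth_rewrite 1 [e5]
  rw [bcm_symm hH P Q, inv_mul_cancel]

end core

variable {G : Type*} [Group G] [Finite G] {p : ℕ} [hp : Fact p.Prime] {S A B K L : Subgroup G}

/-- The elementary abelian subgroups of `S` of maximal order. -/
def AE (p : ℕ) (S : Subgroup G) : Set (Subgroup G) := {A | Elem p (pRank p S) A S}

/-- The Thompson subgroup. -/
def Je (p : ℕ) (S : Subgroup G) : Subgroup G := sSup (AE p S)

theorem mem_AE : A ∈ AE p S ↔ Elem p (pRank p S) A S := Iff.rfl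

theorem mem_AE_of_card (hA : A ∈ AE p S) (hB : B ≤ S) (he : IsElementaryAbelian p B)
    (hc : Nat.card A ≤ Nat.card B) : B ∈ AE p S :=
  ⟨hB, he, le_antisymm (card_le_pow_pRank he hB) (Elem.card hA ▸ hc)⟩

theorem mem_AE_iff : A ∈ AE p S ↔ A ≤ S ∧ IsElementaryAbelian p A ∧
    ∀ B, B ≤ S → IsElementaryAbelian p B → Nat.card B ≤ Nat.card A := by
  constructor
  · intro h
    exact ⟨h.1, h.2.1, fun B h1 h2 => Elem.card h ▸ card_le_pow_pRank h2 h1⟩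
  · rintro ⟨h1, h2, h3⟩
    obtain ⟨B, hB⟩ := exists_elem_pRank p S
    exact mem_AE_of_card hB h1 h2 (h3 B hB.le hB.elemAb)

theorem le_Je (hA : A ∈ AE p S) : A ≤ Je p S := le_sSup hA

theorem Je_le (p : ℕ) (S : Subgroup G) : Je p S ≤ S := sSup_le fun A hA => hA.1

theorem norm_le_norm_Je (S : Subgroup G) : 𝐍(S) ≤ 𝐍(Je p S) :=
  norms_sSup_of_cj fun g hg A hA => by
    have := Elem.cj hA g
    rwa [cj_eq_of_mem_normalizer hg] at this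

theorem thompsonSubgroupOf_eq (S : Subgroup G) : thompsonSubgroupOf p S = Je p S := by
  apply le_antisymm
  · rw [thompsonSubgroupOf, map_le_iff_le_comap]
    refine sSup_le fun A hA => map_le_iff_le_comap.1 (le_Je (mem_AE_iff.2 ⟨map_subtype_le _,
      hA.1.map _, fun B h1 h2 => ?_⟩))
    rw [card_map_subtype, ← card_subgroupOf_of_le h1]
    exact hA.2 _ (h2.subgroupOf S)
  · refine sSup_le fun A hA => ?_
    obtain ⟨h1, h2, h3⟩ := mem_AE_iff.1 hA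
    rw [← map_subgroupOf_eq_of_le h1]
    refine map_mono (le_sSup ⟨h2.subgroupOf S, fun B hB => ?_⟩)
    rw [card_subgroupOf_of_le h1, ← card_map_subtype]
    exact h3 _ (map_subtype_le _) (hB.map _)

theorem AE_inf (hA : A ∈ AE p S) (hL : A ≤ L) : B ∈ AE p (S ⊓ L) ↔ B ∈ AE p S ∧ B ≤ L := by
  have h : pRank p (S ⊓ L) = pRank p S :=
    le_antisymm (pRank_mono inf_le_left) (Elem.le_pRank (Elem.of_le hA (le_inf hA.1 hL)))
  rw [mem_AE, mem_AE, h]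
  exact ⟨fun h => ⟨h.mono inf_le_left, h.le.trans inf_le_right⟩, fun h => h.1.of_le (le_inf h.1.le h.2)⟩

theorem pmap_Je {G' : Type*} [Group G'] [Finite G'] {D : Subgroup G} {f : D →* G'} (hS : S ≤ D)
    (hk : pker f ⊓ S = ⊥) : pmap f (Je p S) = Je p (pmap f S) := by
  have hr : pRank p S = pRank p (pmap f S) := pRank_congr (pmapEquiv hS hk)
  have hk' : ∀ {A}, A ≤ S → pker f ⊓ A = ⊥ := fun h => eq_bot_iff.2 (hk ▸ inf_le_inf_left _ h)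
  apply le_antisymm
  · rw [← le_pcomap_iff ((Je_le p S).trans hS)]
    refine sSup_le fun A hA => (le_pcomap_iff (hA.1.trans hS)).2 (le_Je ⟨pmap_mono f hA.1, hA.2.1.pmap f, ?_⟩)
    rw [card_pmap_of_inj (hA.1.trans hS) (hk' hA.1), ← hr]; exact hA.2.2
  · refine sSup_le fun U hU => ?_
    have e : pmap f (S ⊓ pcomap f U) = U := by rw [pmap_inf_pcomap, inf_eq_right.2 hU.1]
    have hle : S ⊓ pcomap f U ≤ D := inf_le_left.trans hS
    rw [← e]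
    refine pmap_mono f (le_Je ⟨inf_le_left, ⟨?_, fun a ha => ?_⟩, ?_⟩)
    · rw [abelian_congr (pmapEquiv hle (hk' inf_le_left)), e]; exact hU.2.1.1
    · have : a ^ p ∈ pker f ⊓ S := ⟨mem_pker.2 ⟨pow_mem (hle ha) _, by
        rw [pel_pow f (hle ha)]; exact hU.2.1.2 _ (mem_pcomap.1 ha.2).2⟩, pow_mem ha.1 _⟩
      rwa [hk] at this
    · rw [← card_pmap_of_inj hle (hk' inf_le_left), e, hr]; exact hU.2.2

theorem pmap_center_of_inj {G' : Type*} [Group G'] {D : Subgroup G} {f : D →* G'} (hS : S ≤ D)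
    (hk : pker f ⊓ S = ⊥) : pmap f 𝐙(S) = 𝐙(pmap f S) := by
  refine le_antisymm (pmap_center_le f S) fun z hz => ?_
  obtain ⟨x, hx, rfl⟩ := (mem_pmap_of_le hS).1 hz.1
  refine pel_mem_pmap f ⟨hx, mem_cent_iff.2 fun y hy => ?_⟩
  have : y * x * y⁻¹ * x⁻¹ ∈ pker f ⊓ S := by
    have hm : y * x * y⁻¹ * x⁻¹ ∈ S := mul_mem (mul_mem (mul_mem hy hx) (inv_mem hy)) (inv_mem hx)
    refine ⟨mem_pker.2 ⟨hS hm, ?_⟩, hm⟩
    rw [pel_comm f (hS hy) (hS hx), mem_cent_iff.1 hz.2 _ (pel_mem_pmap f hy)]; group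
  rw [hk, mem_bot, mul_inv_eq_one, mul_inv_eq_iff_eq_mul] at this
  exact this

/-- Glauberman's replacement theorem, for elementary abelian subgroups. -/
theorem replacement (h2 : p ≠ 2) (hS : IsPGroup p S) (hB : B ⊴ S) (hBp : ∀ b ∈ B, b ^ p = 1)
    (hBB : ⁅B, B⁆ ≤ 𝐂(B)) (hA : A ∈ AE p S) (hBA : ⁅B, B⁆ ≤ 𝐂(A)) (hn : ¬ B ≤ 𝐍(A)) :
    ∃ A' ∈ AE p S, A ⊓ B < A' ⊓ B ∧ A' ≤ 𝐍(A) := by
  have hAe : IsElementaryAbelian p A := hA.2.1
  have nB : A ≤ 𝐍(B) := hA.1.trans hB.norm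
  obtain ⟨x, hxB, hxN, hxA⟩ : ∃ x ∈ B, x ∈ 𝐍((A ⊔ B) ⊓ 𝐍(A)) ∧ x ∉ 𝐍(A) := by
    obtain ⟨y, hy, hyN, hy'⟩ := exists_mem_normalizer_not_mem (hS.to_le (sup_le hA.1 hB.le))
      (inf_lt_left.2 fun h => hn (le_sup_right.trans h) : (A ⊔ B) ⊓ 𝐍(A) < A ⊔ B)
    obtain ⟨a, ha, x, hx, rfl⟩ := (mem_sup_of_norm_left nB).1 hy
    have ha' : a ∈ (A ⊔ B) ⊓ 𝐍(A) := ⟨mem_sup_left ha, le_normalizer ha⟩
    exact ⟨x, hx, (mul_mem_cancel_left (le_normalizer ha')).1 hyN,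
      fun h => hy' ⟨hy, mul_mem ha'.2 h⟩⟩
  have hφB : ∀ a ∈ A, ⁅x, a⁆ ∈ B := fun a ha => comm_le_left nB (commutator_mem_commutator hxB ha)
  have hφN : ∀ a ∈ A, ⁅x, a⁆ ∈ 𝐍(A) := fun a ha =>
    mul_mem (conj_mem_of_mem_normalizer hxN ⟨mem_sup_left ha, le_normalizer ha⟩).2
      (le_normalizer (inv_mem ha))
  have hφ : ∀ a b : G, ⁅x, a * b⁆ = ⁅x, a⁆ * (a * ⁅x, b⁆ * a⁻¹) := fun a b => by
    simp only [commutatorElement_def]; group
  have hH : ∀ a b c : B, c * ⁅a, b⁆ = ⁅a, b⁆ * c := fun a b c =>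
    Subtype.ext (mem_cent_iff.1 (hBB (commutator_mem_commutator a.2 b.2)) c c.2)
  let σ : ∀ a ∈ A, MulAut B := fun a ha => B.normalizerMonoidHom ⟨a, nB ha⟩
  have hσ : ∀ a ha (u : B), (σ a ha u : G) = a * u * a⁻¹ := fun a ha u => rfl
  have hσβ : ∀ a ha (u v : B), bcm hH (σ a ha u) (σ a ha v) = bcm hH u v := fun a ha u v => by
    apply Subtype.ext; apply Subtype.ext
    change ⁅a * u * a⁻¹, a * v * a⁻¹⁆ = ⁅(u : G), (v : G)⁆
    rw [← conjugate_commutatorElement,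
      mem_cent_iff.1 (hBA (commutator_mem_commutator u.2 v.2)) a ha]; group
  have hx' : ∀ a ha, ((⟨x, hxB⟩ * (σ a ha ⟨x, hxB⟩)⁻¹ : B) : G) = ⁅x, a⁆ := fun a ha => by
    simp only [coe_mul, coe_inv, hσ, commutatorElement_def]; group
  have hψ : ∀ a ha, ∀ b ∈ A, ∀ u : B, (u : G) = ⁅x, b⁆ →
      σ a ha (σ a ha u * u⁻¹) = σ a ha u * u⁻¹ := fun a ha b hb u hu => by
    apply Subtype.ext
    have : (↑(σ a ha u * u⁻¹) : G) ∈ A := by
      simp only [coe_mul, coe_inv, hσ, hu]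
      rw [mul_assoc, mul_assoc, ← mul_assoc ⁅x, b⁆]
      exact mul_mem ha (conj_mem_of_mem_normalizer (hφN b hb) (inv_mem ha))
    rw [hσ a ha, hAe.mul_comm ha this]; group
  have hcomm : ∀ a ∈ A, ∀ b ∈ A, ⁅x, a⁆ * ⁅x, b⁆ = ⁅x, b⁆ * ⁅x, a⁆ := fun a ha b hb => by
    have h1 := bcm_phi_sq hH ⟨x, hxB⟩ (σ a ha) (σ b hb)
      (Subtype.ext (by simp only [hσ]; rw [← mul_assoc, ← mul_assoc, hAe.mul_comm ha hb,
        mul_assoc _ b⁻¹, hAe.mul_comm (inv_mem hb) (inv_mem ha)]; group))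
      (hσβ a ha) (hσβ b hb) (hψ a ha b hb _ (hx' b hb)) (hψ b hb a ha _ (hx' a ha))
    have h3 : ⁅⁅x, a⁆, ⁅x, b⁆⁆ ^ 2 = 1 := by
      rw [← hx' a ha, ← hx' b hb]
      exact congrArg (fun z : center B => ((z : B) : G)) h1
    have h4 : ⁅⁅x, a⁆, ⁅x, b⁆⁆ ^ p = 1 :=
      hBp _ (der_le B (commutator_mem_commutator (hφB a ha) (hφB b hb)))
    rw [← commutatorElement_eq_one_iff_mul_comm, ← orderOf_eq_one_iff]
    exact Nat.eq_one_of_dvd_coprimes ((Nat.coprime_primes Nat.prime_two hp.out).2 h2.symm)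
      (orderOf_dvd_of_pow_eq_one h3) (orderOf_dvd_of_pow_eq_one h4)
  set M := closure {y | ∃ a ∈ A, y = ⁅x, a⁆} with hM
  have hφM : ∀ a ∈ A, ⁅x, a⁆ ∈ M := fun a ha => subset_closure ⟨a, ha, rfl⟩
  have hMB : M ≤ B := (closure_le _).2 (by rintro _ ⟨a, ha, rfl⟩; exact hφB a ha)
  have hMN : M ≤ 𝐍(A) := (closure_le _).2 (by rintro _ ⟨a, ha, rfl⟩; exact hφN a ha)
  have hcM : ∀ c : G, (∀ a ∈ A, ⁅x, a⁆ * c = c * ⁅x, a⁆) → c ∈ 𝐂(M) := fun c hc =>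
    mem_cent_iff_le_cent1.2 ((closure_le _).2 (by rintro _ ⟨a, ha, rfl⟩; exact mem_cent1_iff.2 (hc a ha)))
  have hMe : IsElementaryAbelian p M := ⟨abelian_iff.2 ((closure_le _).2 (by
    rintro _ ⟨a, ha, rfl⟩; exact hcM _ fun b hb => hcomm b hb a ha)), fun m hm => hBp m (hMB hm)⟩
  have hAB : A ⊓ B ≤ A ⊓ 𝐂(M) := fun c hc => ⟨hc.1, hcM c fun a ha => by
    have h0 : σ a ha ⟨c, hc.2⟩ = ⟨c, hc.2⟩ := Subtype.ext (by rw [hσ a ha, hAe.mul_comm ha hc.1]; group)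
    have h1 := bcm_phi hH ⟨x, hxB⟩ ⟨c, hc.2⟩ (σ a ha) (hσβ a ha) (by rw [h0]; simp)
    rw [h0, mul_inv_cancel, bcm_one_right] at h1
    rw [← commutatorElement_eq_one_iff_mul_comm, ← hx' a ha]
    exact congrArg (fun z : center B => ((z : B) : G)) h1⟩
  have hker : ∀ a ∈ A, ⁅x, a⁆ ∈ A → a ∈ 𝐂(M) := fun a ha h => hcM a fun b hb => by
    have h1 := hφ a b
    rw [hAe.mul_comm ha hb, hφ, hAe.mul_comm hb h, mul_inv_cancel_right, hcomm b hb a ha,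
      mul_right_inj] at h1
    rw [← mul_inv_eq_iff_eq_mul.1 h1.symm]
  refine ⟨M ⊔ (A ⊓ 𝐂(M)), mem_AE_of_card hA (sup_le (hMB.trans hB.le) (inf_le_left.trans hA.1))
    (hMe.sup (hAe.mono inf_le_left) inf_le_right) ?_, ?_, sup_le hMN (inf_le_left.trans le_normalizer)⟩
  · have c1 := card_sup_mul_card_inf (A := M) (B := A ⊓ 𝐂(M)) (Or.inl (norms_of_cents inf_le_right))
    have c2 := card_inf_mul_relIndex 𝐂(M) A
    have c3 := card_inf_mul_relIndex A M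
    have c4 : Nat.card ↥(M ⊓ (A ⊓ 𝐂(M))) ≤ Nat.card ↥(A ⊓ M) :=
      card_le_of_le' (le_inf (inf_le_right.trans inf_le_left) inf_le_left)
    have c5 : 𝐂(M).relIndex A ≤ A.relIndex M := by
      refine Nat.card_le_card_of_injective
        (fun q : A ⧸ 𝐂(M).subgroupOf A => ((⟨⁅x, q.out⁆, hφM _ q.out.2⟩ : M) : M ⧸ A.subgroupOf M))
        fun q r h => ?_
      have h1 : ⁅x, (q.out : G)⁆⁻¹ * ⁅x, (r.out : G)⁆ ∈ A :=
        mem_subgroupOf.1 (QuotientGroup.eq.1 h)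
      have h3 := hφ q.out ((q.out : G)⁻¹ * r.out)
      rw [mul_inv_cancel_left] at h3
      rw [h3, inv_mul_cancel_left, mul_mem_cancel_right (inv_mem q.out.2),
        mul_mem_cancel_left q.out.2] at h1
      rw [← q.out_eq, ← r.out_eq]
      exact QuotientGroup.eq.2 (hker _ (mul_mem (inv_mem q.out.2) r.out.2) h1)
    rw [inf_comm 𝐂(M)] at c2
    have c6 := card_pos' (A ⊓ M)
    rw [← c3] at c1
    rw [← c2]
    refine Nat.le_of_mul_le_mul_right ?_ c6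
    calc _ ≤ Nat.card ↥(A ⊓ 𝐂(M)) * A.relIndex M * Nat.card ↥(A ⊓ M) := by gcongr
      _ = _ := by rw [mul_comm, mul_comm (Nat.card ↥(A ⊓ 𝐂(M))), ← mul_assoc, ← c1]
      _ ≤ _ := Nat.mul_le_mul_left _ c4
  · refine lt_of_le_of_ne (le_inf (hAB.trans le_sup_right) inf_le_right) fun h => hxA ?_
    have h1 : M ≤ A := (le_inf le_sup_left hMB).trans (h.ge.trans inf_le_left)
    refine mem_normalizer_of_cj_le (cj_le_iff'.2 fun a ha => ?_)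
    exact (mul_mem_cancel_right (inv_mem ha)).1 (h1 (hφM a ha))

end CA.Loc
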