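/-
Glauberman's ZJ-theorem for the Thompson subgroup `J_e`, in solvable groups of odd order.
-/
import Cfsg.Agent.Lib.Loc.Repl
import Cfsg.Agent.Lib.BG.AppA

set_option autoImplicit false
set_option linter.unusedSectionVars false
set_option linter.style.haveILetI false
set_option linter.unusedVariables false

namespace CA.Loc

open Cfsg Subgroup CA
open scoped commutatorElement

variable {G : Type*} [Group G] [Finite G] {p : ℕ} [hp : Fact p.Prime] {M S A B K L : Subgroup G}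

theorem exists_max_card {𝒮 : Set (Subgroup G)} (h : 𝒮.Nonempty) (f : Subgroup G → ℕ) :
    ∃ A ∈ 𝒮, ∀ B ∈ 𝒮, f B ≤ f A := Set.exists_max_image 𝒮 f (Set.toFinite _) h

theorem zj_aux (h2 : p ≠ 2) (ho : Odd (Nat.card M)) (hS : SylowIn p S M) (n : ℕ) :
    ∀ B : Subgroup G, Nat.card B ≤ n → B ⊴ M → PiGrp {p} B → M ≤ 𝐍(𝐙(Je p S) ⊓ B) := by
  induction n with
  | zero => intro B h; exact absurd (card_pos' B) (by omega)
  | succ n ih =>
  intro B hc hB hBp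
  set Z := 𝐙(Je p S) with hZ
  have hSp : IsPGroup p S := hS.isPGroup hp.out
  have hBS : B ≤ S := hS.normal_le hB hBp
  have nZ : 𝐍(S) ≤ 𝐍(Z) := norms_center (norm_le_norm_Je S)
  set s := {y | ∃ g ∈ M, ∃ z ∈ Z ⊓ B, y = g * z * g⁻¹} with hs
  have hsB : closure s ≤ B := (closure_le _).2 (by
    rintro _ ⟨g, hg, z, hz, rfl⟩; exact conj_mem_of_mem_normalizer (hB.norm hg) hz.2)
  have hZs : Z ⊓ B ≤ closure s := fun z hz => subset_closure ⟨1, one_mem _, z, hz, by simp⟩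
  by_cases hlt : closure s ≠ B
  · have h1 := ih (closure s) (by have := card_lt_of_lt' (lt_of_le_of_ne hsB hlt); omega)
      ⟨hsB.trans hB.le, norms_closure (by
        rintro h hh _ ⟨g, hg, z, hz, rfl⟩
        exact ⟨h * g, mul_mem hh hg, z, hz, by group⟩)⟩ (hBp.of_le hsB)
    rwa [le_antisymm (inf_le_inf_left Z hsB) (le_inf inf_le_left hZs)] at h1
  push Not at hlt
  by_cases hb : B = ⊥
  · rw [hb, inf_bot_eq]; exact norms_bot
  have hcl : ∀ {K : Subgroup G}, (∀ g ∈ M, ∀ z ∈ Z ⊓ B, g * z * g⁻¹ ∈ K) → B ≤ K := fun h => by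
    rw [← hlt, closure_le]; rintro _ ⟨g, hg, z, hz, rfl⟩; exact h g hg z hz
  have hB' : ⁅B, B⁆ ⊴ M := hB.commutator hB
  have hW := ih ⁅B, B⁆ (by have := card_lt_of_lt' (der_lt_pgroup (hBp.isPGroup hp.out) hb); omega) hB'
    (hBp.of_le (der_le B))
  have hBZ : ⁅B, B⁆ ≤ Z := by
    refine le_trans ?_ (inf_le_left : Z ⊓ ⁅B, B⁆ ≤ Z)
    nth_rewrite 1 [← hlt]
    refine comm_closure_le ?_ ((hsB.trans hB.le).trans hW)
    rintro _ ⟨g, hg, z, hz, rfl⟩ c hc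
    have hc' : g⁻¹ * c * g ∈ B := conj_inv_mem_of_mem_normalizer (hB.norm hg) hc
    have h1 : z * (g⁻¹ * c * g) * z⁻¹ * (g⁻¹ * c * g)⁻¹ ∈ Z ⊓ ⁅B, B⁆ :=
      ⟨comm_le_left ((hBS.trans le_normalizer).trans nZ) (comm_mem hz.1 hc'), comm_mem hz.2 hc'⟩
    convert conj_mem_of_mem_normalizer (hW hg) h1 using 1
    group
  have hBB : ⁅B, B⁆ ≤ 𝐂(B) := cents_symm (hcl fun g hg z hz =>
    conj_mem_of_mem_normalizer (norms_cent hB'.norm hg)
      (cent_mono hBZ (abelian_iff.1 (abelian_center _) hz.1)))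
  set Ω := omega1 p B with hΩ
  have hΩB : Ω ≤ B := omega1_le p B
  have hΩM : Ω ⊴ M := (omega1_charIn p B).trans_normalIn hB
  have hΩp : ∀ x ∈ Ω, x ^ p = 1 := fun x hx => omega1_pow_of_class_two h2 hBB hx
  have hrepl : ∀ A ∈ AE p S, ¬ Ω ≤ 𝐍(A) → ∃ A' ∈ AE p S, A ⊓ Ω < A' ⊓ Ω ∧ A' ≤ 𝐍(A) := fun A hA hn =>
    replacement h2 hSp (hΩM.of_le (hΩB.trans hBS) hS.le) hΩp (cents_mono hBB (der_mono hΩB) hΩB) hA
      ((der_mono hΩB).trans (hBZ.trans (inf_le_right.trans (cent_mono (le_Je hA))))) hn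
  set L := sSup {K | K ⊴ M ∧ K ≤ 𝐍(Z ⊓ B)} with hL
  have hLN : L ≤ 𝐍(Z ⊓ B) := sSup_le fun K hK => hK.2
  have hLM : L ⊴ M := ⟨sSup_le fun K hK => hK.1.le, norms_sSup fun K hK => hK.1.norm⟩
  have hst : ∀ A ∈ AE p S, Ω ≤ 𝐍(A) → A ≤ L := fun A hA hn => by
    have hCΩ : M ⊓ 𝐂(Ω) ⊴ M := normalIn_inf_of_norm (norms_cent hΩM.norm)
    have hK := coreMod_normalIn {p} hCΩ
    refine (le_coreMod_of_norm_abelian h2 ho ((hBp.of_le hΩB).isPGroup hp.out) hΩM.norm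
      (hA.1.trans hS.le) hA.2.1.1 hn).trans (le_sSup ⟨hK, ?_⟩)
    have h1 : M ⊓ 𝐂(B) ≤ M ⊓ 𝐂(Ω) := inf_le_inf_left _ (cent_mono hΩB)
    have h3 : M ⊓ 𝐂(Ω) ≤ 𝐍(M ⊓ 𝐂(B)) :=
      inf_le_left.trans (norms_inf le_normalizer (norms_cent hB.norm))
    have h4 : PiNum {p} ((M ⊓ 𝐂(B)).relIndex (M ⊓ 𝐂(Ω))) := by
      rw [← piGrp_quo_iff_relIndex h3]
      refine (isPGroup_quo_of_forall_piElt h3 fun x hx hx' => ⟨hx.1, ?_⟩).piGrp hp.out
      exact (copAct_zpowers_of_piElt (hBp.isPGroup hp.out) (hB.norm hx.1) hx').cents_of_omega1 h2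
        (hBp.isPGroup hp.out) (zpowers_le.2 hx.2) (mem_zpowers x)
    rw [← (hS.inf_normal hK).sup_eq_of_relIndex (h1.trans (le_coreMod_self _ _ _)) (by
      rw [← relIndex_mul_relIndex _ _ _ h1 (le_coreMod_self _ _ _)]
      exact h4.mul (piNum_relIndex_coreMod _ _ _))]
    exact sup_le (inf_le_left.trans (norms_inf (le_normalizer.trans nZ) (hS.le.trans hB.norm)))
      (norms_of_cents (inf_le_right.trans (cent_mono inf_le_right)))
  obtain ⟨A₀, hA₀, hmax⟩ := exists_max_card (𝒮 := AE p S) (exists_elem_pRank p S)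
    fun A => Nat.card ↥(A ⊓ Ω)
  have hA₀L : A₀ ≤ L := hst A₀ hA₀ (by
    by_contra hn
    obtain ⟨A', h1, h3, -⟩ := hrepl A₀ hA₀ hn
    exact (card_lt_of_lt' h3).not_ge (hmax A' h1))
  have hfr := frattini_exists_mul hLM (hS.inf_normal hLM)
  have hJ : Je p (S ⊓ L) ≤ Je p S := sSup_le fun A hA => le_Je ((AE_inf hA₀ hA₀L).1 hA).1
  by_cases hall : ∀ A ∈ AE p S, A ≤ L
  · have hJ' : Je p (S ⊓ L) = Je p S :=
      le_antisymm hJ (sSup_le fun A hA => le_Je ((AE_inf hA₀ hA₀L).2 ⟨hA, hall A hA⟩))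
    intro g hg
    obtain ⟨l, hl, m, hm, rfl⟩ := hfr g hg
    refine mul_mem (hLN hl) (norms_inf (X := M ⊓ 𝐍(S ⊓ L)) ?_ (inf_le_left.trans hB.norm) hm)
    rw [hZ, ← hJ']
    exact inf_le_right.trans (norms_center (norm_le_norm_Je _))
  exfalso
  push Not at hall
  have hBJ : B ≤ 𝐂(Je p (S ⊓ L)) := hcl fun g hg z hz => by
    obtain ⟨l, hl, m, hm, h⟩ := hfr g⁻¹ (inv_mem hg)
    have h1 := conj_inv_mem_of_mem_normalizer (norms_cent (norm_le_norm_Je (p := p) _) hm.2)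
      (cent_mono hJ (conj_inv_mem_of_mem_normalizer (hLN hl) hz).1.2)
    rw [← inv_inv g, h]
    convert h1 using 1
    group
  obtain ⟨A, hA, hmax'⟩ := exists_max_card (𝒮 := {A | A ∈ AE p S ∧ ¬ A ≤ L}) hall
    fun A => Nat.card ↥(A ⊓ Ω)
  have hn : ¬ Ω ≤ 𝐍(A) := fun h => hA.2 (hst A hA.1 h)
  obtain ⟨A', h1, h3, h4⟩ := hrepl A hA.1 hn
  have h5 : A' ≤ L := by
    by_contra h
    exact (card_lt_of_lt' h3).not_ge (hmax' A' ⟨h1, h⟩)
  refine hn (le_trans (fun x hx => ?_) h4)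
  exact (Elem.maxElem h1 le_rfl).mem_of_cent (hBS (hΩB hx))
    (cent_mono (le_Je ((AE_inf hA₀ hA₀L).2 ⟨h1, h5⟩)) (hBJ (hΩB hx))) (hΩp x hx)

theorem zj_core (ho : Odd (Nat.card M)) (hs : Group.IsSolvable M) (hO : piCoreOf {p}ᶜ M = ⊥)
    (hS : SylowIn p S M) : M ≤ 𝐍(𝐙(Je p S)) := by
  by_cases h2 : p = 2
  · have : S = ⊥ := hS.eq_bot ((piGrp_compl_singleton hp.out).2 (h2 ▸ ho.not_two_dvd_nat))
    rw [eq_bot_iff.2 ((inf_le_left.trans (Je_le p S)).trans this.le : 𝐙(Je p S) ≤ ⊥)]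
    exact norms_bot
  have h1 := zj_aux h2 ho hS _ _ le_rfl (piCoreOf_normalIn {p} M) (piCoreOf_piGrp _ _)
  have h3 := hS.le_core2_of_abelian ho hs (A := 𝐙(Je p S)) ⟨inf_le_left.trans (Je_le p S),
    le_normalizer.trans (norms_center (norm_le_norm_Je S))⟩ (abelian_center _)
  rw [core2_eq_piCoreOf hO] at h3
  rwa [inf_eq_left.2 h3] at h1

/-- The ZJ-theorem. -/
theorem zj (ho : Odd (Nat.card M)) (hs : Group.IsSolvable M) (hS : SylowIn p S M) :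
    M ≤ 𝐍(piCoreOf {p}ᶜ M ⊔ 𝐙(Je p S)) := by
  have nO : M ≤ 𝐍(piCoreOf {p}ᶜ M) := piCoreOf_norm _ _
  have hk : pker (qmk (piCoreOf {p}ᶜ M)) ⊓ S = ⊥ := by
    rw [pker_qmk]; exact (piCoreOf_piGrp _ _).inf_eq_bot' hS.piGrp
  have h1 := zj_core (odd_card_quo ho _) (solvable_quo hs _) (piCoreOf_quo_self _ _)
    (hS.quo (hS.le.trans nO))
  have hJ : Je p S ≤ 𝐍(piCoreOf {p}ᶜ M) := (Je_le p S).trans (hS.le.trans nO)
  rw [← pmap_Je (hS.le.trans nO) hk, ← pmap_center_of_inj hJ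
    (eq_bot_iff.2 (hk ▸ inf_le_inf_left _ (Je_le p S)))] at h1
  exact (quo_norms_iff nO (inf_le_left.trans hJ)).1 h1

end CA.Loc
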