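/-
Frobenius' and Thompson's normal `p`-complement theorems; Thompson's theorem on the nilpotency of
Frobenius kernels.
-/
import Cfsg.Agent.Lib.Loc.Repl
import Cfsg.Agent.Lib.G.AbelemRepr
import Cfsg.Agent.Lib.G.Transfer
import Cfsg.Agent.Lib.BG.S03

set_option autoImplicit false
set_option linter.unusedSectionVars false
set_option linter.style.haveILetI false
set_option linter.unusedVariables false

namespace CA.Loc

open Cfsg Subgroup CA
open scoped commutatorElement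

universe u

section frob
variable {G : Type*} [Group G] [Finite G] {p : ℕ} [hp : Fact p.Prime] {M P Q : Subgroup G}

/-- If `N_M(R)/C_M(R)` is a `p`-group for all `p`-subgroups `R`, Sylow subgroups containing `D` are conjugate
under `C_M(D)`. -/
theorem sylow_cent_conj
    (h : ∀ R, R ≤ M → PiGrp {p} R → PiNum {p} (𝐂(R).relIndex (M ⊓ 𝐍(R)))) (D : Subgroup G) :
    ∀ P Q, SylowIn p P M → SylowIn p Q M → D ≤ P → D ≤ Q → ∃ c ∈ M ⊓ 𝐂(D), Q = cj c P := by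
  induction D using WellFoundedGT.induction with
  | ind D ih =>
  intro P Q hP hQ h1 h2
  by_cases e : D = P
  · subst e
    exact ⟨1, one_mem _, by rw [cj_one]; exact (hP.eq_of_le_hall hQ h2).symm⟩
  have l1 : D < P := lt_of_le_of_ne h1 e
  have l2 : D < Q := lt_of_le_of_ne h2 fun e' => e (by
    subst e'; exact hQ.eq_of_le_hall hP h1)
  have k1 := lt_inf_normalizer_pgroup (hP.isPGroup hp.out) l1
  have k2 := lt_inf_normalizer_pgroup (hQ.isPGroup hp.out) l2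
  obtain ⟨R₀, hR₀, r₀⟩ := exists_sylowIn_ge (p := p) (M := M ⊓ 𝐍(D)) (hP.piGrp.inf_left 𝐍(D))
    (inf_le_inf_right _ hP.le)
  obtain ⟨S₀, hS₀, s₀⟩ := exists_sylowIn_ge (p := p) (M := M ⊓ 𝐍(D)) (hQ.piGrp.inf_left 𝐍(D))
    (inf_le_inf_right _ hQ.le)
  obtain ⟨R, hR, r⟩ := exists_sylowIn_ge (p := p) (M := M) hR₀.piGrp (hR₀.le.trans inf_le_left)
  obtain ⟨S, hS, s⟩ := exists_sylowIn_ge (p := p) (M := M) hS₀.piGrp (hS₀.le.trans inf_le_left)
  obtain ⟨n, hn, en⟩ := hR₀.exists_cj hS₀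
  have hi : PiNum {p} ((M ⊓ 𝐂(D)).relIndex (M ⊓ 𝐍(D))) := by
    have := h D (h1.trans hP.le) (hP.piGrp.of_le h1)
    rwa [← inf_relIndex_right, show 𝐂(D) ⊓ (M ⊓ 𝐍(D)) = M ⊓ 𝐂(D) from le_antisymm
      (le_inf (inf_le_right.trans inf_le_left) inf_le_left)
      (le_inf inf_le_right (inf_le_inf_left _ (centralizer_le_normalizer _)))] at this
  obtain ⟨a, ha, c, hc, e⟩ := hR₀.exists_mul_of_relIndex
    (inf_le_inf_left _ (centralizer_le_normalizer _)) hi n⁻¹ (inv_mem hn)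
  have e1 : S₀ = cj c⁻¹ R₀ := by
    rw [en, ← inv_inv n, e, mul_inv_rev, cj_mul, cj_eq_of_mem (inv_mem ha)]
  obtain ⟨a₁, ha₁, e₁⟩ := ih _ k1 P R hP hR inf_le_left (r₀.trans r)
  obtain ⟨a₂, ha₂, e₂⟩ := ih _ (k2.trans_le s₀) (cj c⁻¹ R) S (hR.cj_of_mem (inv_mem hc.1)) hS
    (e1 ▸ cj_mono _ r) s
  obtain ⟨a₃, ha₃, e₃⟩ := ih _ k2 S Q hS hQ (s₀.trans s) inf_le_left
  refine ⟨a₃ * a₂ * c⁻¹ * a₁, mul_mem (mul_mem (mul_mem ⟨ha₃.1, cent_mono k2.le ha₃.2⟩
    ⟨ha₂.1, cent_mono (k2.le.trans s₀) ha₂.2⟩) (inv_mem hc)) ⟨ha₁.1, cent_mono k1.le ha₁.2⟩, ?_⟩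
  rw [e₃, e₂, e₁, cj_cj, cj_cj, cj_cj]

/-- Under the same hypothesis a Sylow subgroup controls its own fusion. -/
theorem fusion_of_cent
    (h : ∀ R, R ≤ M → PiGrp {p} R → PiNum {p} (𝐂(R).relIndex (M ⊓ 𝐍(R)))) (hP : SylowIn p P M)
    {x u : G} (hx : x ∈ P) (hu : u ∈ M) (hux : u * x * u⁻¹ ∈ P) : ∃ n ∈ P, n * x * n⁻¹ = u * x * u⁻¹ := by
  obtain ⟨c, hc, e⟩ := sylow_cent_conj h (zpowers x) P (cj u⁻¹ P) hP (hP.cj_of_mem (inv_mem hu))
    (zpowers_le.2 hx) (zpowers_le.2 (mem_cj_inv.2 hux))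
  have hn : u * c ∈ M ⊓ 𝐍(P) := ⟨mul_mem hu hc.1, mem_normalizer_iff_cj.2 (by
    rw [cj_mul, ← e, cj_cj_inv])⟩
  have hi : PiNum {p} ((M ⊓ 𝐂(P)).relIndex (M ⊓ 𝐍(P))) := by
    have := h P hP.le hP.piGrp
    rwa [← inf_relIndex_right, show 𝐂(P) ⊓ (M ⊓ 𝐍(P)) = M ⊓ 𝐂(P) from le_antisymm
      (le_inf (inf_le_right.trans inf_le_left) inf_le_left)
      (le_inf inf_le_right (inf_le_inf_left _ (centralizer_le_normalizer _)))] at this
  obtain ⟨a, ha, d, hd, e'⟩ := hP.inf_norm.exists_mul_of_relIndex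
    (inf_le_inf_left _ (centralizer_le_normalizer _)) hi _ hn
  refine ⟨a, ha, ?_⟩
  have e1 : c * x * c⁻¹ = x := conj_eq_of_mem_cent hc.2 (mem_zpowers x)
  have e2 : d * x * d⁻¹ = x := conj_eq_of_mem_cent hd.2 hx
  calc a * x * a⁻¹ = a * (d * x * d⁻¹) * a⁻¹ := by rw [e2]
    _ = (a * d) * x * (a * d)⁻¹ := by group
    _ = u * (c * x * c⁻¹) * u⁻¹ := by rw [← e']; group
    _ = _ := by rw [e1]

/-- Frobenius' normal `p`-complement theorem. -/
theorem frobenius_npc' (M : Subgroup G)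
    (h : ∀ R, R ≤ M → PiGrp {p} R → PiNum {p} (𝐂(R).relIndex (M ⊓ 𝐍(R)))) : NormalPCompl p M := by
  induction M using WellFoundedLT.induction with
  | ind M ih =>
  obtain ⟨P, hP⟩ := exists_sylowIn p M
  by_cases hb : P = ⊥
  · exact normalPCompl_of_piGrp_compl (hP.eq_bot_iff.1 hb)
  have h1 : P ⊓ ⁅M, M⁆ ≤ ⁅P, P⁆ := hP.inf_der_le_of_fusion fun x hx u hu hux => fusion_of_cent h hP hx hu hux
  have h2 : p ∣ ⁅M, M⁆.relIndex M := by
    by_contra hn
    have := hP.le_der_iff.2 ((piNum_compl_singleton hp.out).2 hn)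
    rw [inf_eq_left.2 this] at h1
    exact (der_lt_pgroup (hP.isPGroup hp.out) hb).not_ge h1
  obtain ⟨N, -, hN, hi⟩ := exists_normal_prime_relIndex hp.out h2
  have hlt : N < M := lt_of_le_of_ne hN.le fun e => by
    rw [e, relIndex_self] at hi; exact hp.out.one_lt.ne hi
  have h3 := ih N hlt fun R hR hRp => (h R (hR.trans hN.le) hRp).of_dvd (by
    rw [← inf_relIndex_right 𝐂(R) (M ⊓ 𝐍(R)), ← inf_relIndex_right 𝐂(R) (N ⊓ 𝐍(R))]
    rw [show 𝐂(R) ⊓ (N ⊓ 𝐍(R)) = (𝐂(R) ⊓ (M ⊓ 𝐍(R))) ⊓ (N ⊓ 𝐍(R)) from le_antisymm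
      (le_inf (inf_le_inf_left _ (inf_le_inf_right _ hN.le)) inf_le_right)
      (inf_le_inf_right _ inf_le_left), inf_relIndex_right]
    exact relIndex_dvd_of_norm inf_le_right (inf_le_inf_right _ hN.le)
      (norms_inf (norms_cent inf_le_right) (norms_self_of_le (inf_le_inf_right _ hN.le))))
  refine normalPCompl_of_normal (hN.piCoreOf {p}ᶜ) (piCoreOf_piGrp _ _) ?_
  rw [← relIndex_mul_relIndex _ _ _ (piCoreOf_le _ N) hN.le, hi]
  exact h3.piNum.mul ((piNum_prime hp.out).2 rfl)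

/-- Frobenius' normal `p`-complement theorem: local form. -/
theorem frobenius_npc (h : ∀ R, R ≤ M → PiGrp {p} R → R ≠ ⊥ → NormalPCompl p (M ⊓ 𝐍(R))) :
    NormalPCompl p M := by
  refine frobenius_npc' M fun R hR hRp => ?_
  by_cases hb : R = ⊥
  · subst hb; rw [cent_bot', relIndex_top_left]; exact piNum_one _
  have := (h R hR hRp hb).piNum_relIndex_cent (le_inf hR le_normalizer) hRp
  rwa [inf_assoc, inf_idem] at this

end frob

/-- A quadratic unit normalizing a multiplicatively closed commutative set of semisimple elements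
centralizes it (odd characteristic). -/
theorem commute_of_quadratic {R : Type*} [Ring R] {p k : ℕ} [hp : Fact p.Prime] [CharP R p] (h2 : p ≠ 2)
    (hk : k ≠ 0) {S : Set R} (hm : ∀ s ∈ S, ∀ t ∈ S, s * t ∈ S) (hc : ∀ s ∈ S, ∀ t ∈ S, Commute s t)
    (hs : ∀ s ∈ S, s ^ p ^ k = s) {t : R} (ht : t * t = 0) (hn : ∀ s ∈ S, (1 + t) * s * (1 - t) ∈ S)
    {s : R} (h : s ∈ S) : t * s = s * t := by
  have hpk : p ^ k = (p ^ k - 2) + 2 := by
    have := Nat.one_lt_pow hk hp.out.one_lt; omega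
  have nil : ∀ w : R, w ^ p ^ k = w → w * w = 0 → w = 0 := fun w h1 h2 => by
    rw [← h1, hpk, pow_add, pow_two, h2, mul_zero]
  have q : ∀ s ∈ S, t * s * t = 0 := fun s h => by
    have h1 := hn s h
    have h2' := hn _ h1
    set s₁ := (1 + t) * s * (1 - t) with e₁
    set s₂ := (1 + t) * s₁ * (1 - t) with e₂
    have e : (s₂ - s₁) - (s₁ - s) = -(2 * (t * s * t)) := by
      rw [e₂, e₁]
      have a1 : ∀ x : R, t * (t * x) = 0 := fun x => by rw [← mul_assoc, ht, zero_mul]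
      have a2 : ∀ x : R, x * t * t = 0 := fun x => by rw [mul_assoc, ht, mul_zero]
      simp only [add_mul, mul_add, mul_sub, sub_mul, one_mul, mul_one, mul_assoc, a1, ht, mul_zero,
        two_mul]
      abel
    have c1 : Commute (s₂ - s₁) (s₁ - s) :=
      ((hc _ h2' _ h1).sub_right (hc _ h2' _ h)).sub_left ((hc _ h1 _ h1).sub_right (hc _ h1 _ h))
    have e3 := nil ((s₂ - s₁) - (s₁ - s)) (by
      rw [sub_pow_char_pow_of_commute _ _ c1, sub_pow_char_pow_of_commute _ _ (hc _ h2' _ h1),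
        sub_pow_char_pow_of_commute _ _ (hc _ h1 _ h), hs _ h2', hs _ h1, hs _ h]) (by
      rw [e, neg_mul_neg]
      have : t * s * t * (t * s * t) = 0 := by
        rw [show t * s * t * (t * s * t) = t * s * (t * t) * s * t by simp only [mul_assoc], ht]; simp
      simp only [two_mul, add_mul, mul_add, this, add_zero])
    rw [e, neg_eq_zero] at e3
    obtain ⟨m, hm'⟩ := hp.out.odd_of_ne_two h2
    have : ((p : ℕ) : R) = 0 := CharP.cast_eq_zero R p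
    calc t * s * t = ((2 * m + 1 : ℕ) : R) * (t * s * t) - (m : R) * (2 * (t * s * t)) := by
          push_cast; noncomm_ring
      _ = 0 := by rw [← hm', this, e3]; simp
  have e : (1 + t) * s * (1 - t) - s = t * s - s * t := by
    have := q s h
    simp only [add_mul, mul_add, mul_sub, sub_mul, one_mul, mul_one, this]; abel
  have e3 := nil ((1 + t) * s * (1 - t) - s) (by
    rw [sub_pow_char_pow_of_commute _ _ (hc _ (hn s h) _ h), hs _ (hn s h), hs _ h]) (by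
    rw [e]
    have a1 := q s h
    have a2 := q _ (hm s h s h)
    calc (t * s - s * t) * (t * s - s * t)
        = (t * s * t) * s - t * (s * s) * t - s * (t * t) * s + s * (t * s * t) := by noncomm_ring
      _ = 0 := by rw [a1, a2, ht]; simp)
  rwa [e, sub_eq_zero] at e3

/-- `p`-stability against an abelian `p'`-section. -/
theorem comm_le_cent_of_quadratic {G : Type*} [Group G] [Finite G] {p : ℕ} [hp : Fact p.Prime]
    (h2 : p ≠ 2) {V Z : Subgroup G} (hV : IsElementaryAbelian p V) (hZ : Z ≤ 𝐍(V))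
    (hZZ : ⁅Z, Z⁆ ≤ 𝐂(V)) (hm : ¬ p ∣ 𝐂(V).relIndex Z) {a : G} (ha : a ∈ 𝐍(V)) (haZ : a ∈ 𝐍(Z))
    (hq : ∀ v ∈ V, ⁅a, v⁆ ∈ 𝐂[a]) {y : G} (hy : y ∈ Z) : ⁅a, y⁆ ∈ 𝐂(V) := by
  by_cases hb : V = ⊥
  · subst hb; rw [cent_bot']; trivial
  haveI : Fact (IsElementaryAbelian p V) := ⟨hV⟩
  haveI := AbV.nontrivial (p := p) hb
  haveI : CharP (Module.End (ZMod p) (AbV p V)) p := charP_of_injective_algebraMap' (ZMod p) p
  set ρ := AbV.rep p V with hρ
  set m := 𝐂(V).relIndex Z with hmd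
  have m0 : m ≠ 0 := relIndex_ne_zero' _ _
  set t := ρ ⟨a, ha⟩ - 1 with ht
  have tt : t * t = 0 := by
    refine LinearMap.ext fun v => ?_
    have h1 : (t v).val = ⁅a, v.val⁆ := AbV.val_rep_sub ⟨a, ha⟩ v
    have h2 : ρ ⟨a, ha⟩ (t v) = t v := (AbV.rep_apply_eq_self_iff _ _).2 (h1 ▸ hq _ v.val_mem)
    change ρ ⟨a, ha⟩ (t v) - t v = 0
    rw [h2, sub_self]
  have e1 : 1 + t = ρ ⟨a, ha⟩ := by rw [ht]; abel
  have e2 : 1 - t = ρ ⟨a, ha⟩⁻¹ := by
    have h1 : (1 + t) * (1 - t) = 1 := by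
      simp only [add_mul, mul_sub, one_mul, mul_one, tt]; abel
    have h2 : ρ ⟨a, ha⟩⁻¹ * (1 + t) = 1 := by rw [e1, ← map_mul, inv_mul_cancel, map_one]
    calc 1 - t = (ρ ⟨a, ha⟩⁻¹ * (1 + t)) * (1 - t) := by rw [h2, one_mul]
      _ = _ := by rw [mul_assoc, h1, mul_one]
  have key := commute_of_quadratic (p := p) (k := m.totient) h2 (Nat.totient_pos.2 (Nat.pos_of_ne_zero m0)).ne'
    (S := {s | ∃ z, ∃ hz : z ∈ Z, s = ρ ⟨z, hZ hz⟩}) ?_ ?_ ?_ tt ?_ ⟨y, hy, rfl⟩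
  · have h1 : ρ ⟨a, ha⟩ * ρ ⟨y, hZ hy⟩ = ρ ⟨y, hZ hy⟩ * ρ ⟨a, ha⟩ := by
      rw [← e1, add_mul, mul_add, key, one_mul, mul_one]
    have h2 : ρ (⟨a, ha⟩ * ⟨y, hZ hy⟩ * ⟨a, ha⟩⁻¹ * ⟨y, hZ hy⟩⁻¹) = 1 := by
      rw [map_mul, map_mul, map_mul, h1, mul_assoc (ρ _), ← map_mul, mul_inv_cancel, map_one, mul_one,
        ← map_mul, mul_inv_cancel, map_one]
    exact (AbV.rep_eq_one_iff _).1 h2
  · rintro _ ⟨z, hz, rfl⟩ _ ⟨w, hw, rfl⟩
    exact ⟨z * w, mul_mem hz hw, (map_mul ρ _ _).symm⟩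
  · rintro _ ⟨z, hz, rfl⟩ _ ⟨w, hw, rfl⟩
    have h1 : ρ (⟨z, hZ hz⟩ * ⟨w, hZ hw⟩ * ⟨z, hZ hz⟩⁻¹ * ⟨w, hZ hw⟩⁻¹) = 1 :=
      (AbV.rep_eq_one_iff _).2 (hZZ (comm_mem hz hw))
    change ρ _ * ρ _ = ρ _ * ρ _
    rw [← map_mul, ← map_mul, ← one_mul (ρ (⟨w, hZ hw⟩ * _)), ← h1, ← map_mul]
    congr 1; group
  · rintro _ ⟨z, hz, rfl⟩
    have h1 : ρ ⟨z, hZ hz⟩ ^ m = 1 := by
      rw [← map_pow]
      exact (AbV.rep_eq_one_iff _).2 (pow_relIndex_mem_of_norm (norms_cent hZ) hz)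
    have h3 : p ^ m.totient ≡ 1 [MOD m] :=
      Nat.ModEq.pow_totient ((Nat.Prime.coprime_iff_not_dvd hp.out).2 hm)
    obtain ⟨c, hc⟩ := (Nat.modEq_iff_dvd' (Nat.one_le_pow _ _ hp.out.pos)).1 h3.symm
    rw [show p ^ m.totient = m * c + 1 by have := Nat.one_le_pow m.totient _ hp.out.pos; omega,
      pow_succ, pow_mul, h1, one_pow, one_mul]
  · rintro _ ⟨z, hz, rfl⟩
    exact ⟨a * z * a⁻¹, conj_mem_of_mem_normalizer haZ hz, by rw [e1, e2, ← map_mul, ← map_mul]; rfl⟩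

theorem Je_ne_bot {G : Type*} [Group G] [Finite G] {p : ℕ} [hp : Fact p.Prime] {S : Subgroup G}
    (hS : IsPGroup p S) (h : S ≠ ⊥) : Je p S ≠ ⊥ := fun e => by
  obtain ⟨A, hA⟩ := exists_elem_pRank p S
  have h1 := (Elem.maxElem hA le_rfl).omega1_center_le
  exact omega1_center_ne_bot hS h (eq_bot_iff.2 (h1.trans (e ▸ le_Je hA)))

theorem thompson_aux {p : ℕ} [hp : Fact p.Prime] (h2 : p ≠ 2) (n : ℕ) :
    ∀ {G : Type u} [Group G] [Finite G] {M P : Subgroup G}, Nat.card M ≤ n → SylowIn p P M →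
      NormalPCompl p (M ⊓ 𝐂(omega1 p 𝐙(P))) → NormalPCompl p (M ⊓ 𝐍(Je p P)) → NormalPCompl p M := by
  induction n with
  | zero => intro G _ _ M P h; exact absurd (card_pos' M) (by omega)
  | succ n ih =>
  intro G _ _ M P hc hP hC hJ
  have hPp : IsPGroup p P := hP.isPGroup hp.out
  by_contra hM
  -- (a) `O_{p'}(M) = 1`
  have hO : piCoreOf {p}ᶜ M = ⊥ := by
    by_contra hO
    set K := piCoreOf {p}ᶜ M with hK
    have nK : K ⊴ M := piCoreOf_normalIn _ _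
    have pK : PiGrp {p}ᶜ K := piCoreOf_piGrp _ _
    have hk : pker (qmk K) ⊓ P = ⊥ := by rw [pker_qmk]; exact pK.inf_eq_bot' hP.piGrp
    have hk' : ∀ {A}, A ≤ P → pker (qmk K) ⊓ A = ⊥ := fun h => eq_bot_iff.2 (hk ▸ inf_le_inf_left _ h)
    have nP : P ≤ 𝐍(K) := hP.le.trans nK.norm
    refine hM (normalPCompl_of_quo nK pK (ih (P := P /ₛ K)
      (by have := card_quo_lt_of_normalIn nK hO; omega) (hP.quo nP) ?_ ?_))
    · rw [← pmap_center_of_inj nP hk, ← pmap_omega1_of_inj (inf_le_left.trans nP) (hk' inf_le_left),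
        ← (copAct_p_right ((omega1_center_le p P).trans nP) pK
          (hP.piGrp.of_le (omega1_center_le p P))).quo_inf_cent_of_le nK.le]
      exact hC.quo K
    · rw [← pmap_Je nP hk, ← (copAct_p_right ((Je_le p P).trans nP) pK
          (hP.piGrp.of_le (Je_le p P))).quo_inf_norm_of_le nK.le]
      exact hJ.quo K
  -- (b) a bad `p`-subgroup with maximal normalizer is normal
  set 𝒰 := {R | R ≤ M ∧ PiGrp {p} R ∧ R ≠ ⊥ ∧ ¬ NormalPCompl p (M ⊓ 𝐍(R))} with h𝒰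
  have hb : ∀ R ∈ 𝒰, (∀ R' ∈ 𝒰, piPart {p} (Nat.card ↥(M ⊓ 𝐍(R'))) ≤ piPart {p} (Nat.card ↥(M ⊓ 𝐍(R)))) →
      M ≤ 𝐍(R) := by
    intro R₀ hR₀ hmax₀
    obtain ⟨T₀, hT₀⟩ := exists_sylowIn p (M ⊓ 𝐍(R₀))
    obtain ⟨g, hg, hgT⟩ := hP.exists_cj_le hT₀.piGrp (hT₀.le.trans inf_le_left)
    have e : cj g (M ⊓ 𝐍(R₀)) = M ⊓ 𝐍(cj g R₀) := by rw [cj_inf, cj_eq_of_mem hg, cj_normalizer]
    have hT : SylowIn p (cj g T₀) (M ⊓ 𝐍(cj g R₀)) := e ▸ hT₀.cj g
    have hR : ¬ NormalPCompl p (M ⊓ 𝐍(cj g R₀)) := fun h => hR₀.2.2.2 (by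
      have := h.cj g⁻¹; rwa [← e, cj_inv_cj] at this)
    have hmax : ∀ R' ∈ 𝒰, piPart {p} (Nat.card ↥(M ⊓ 𝐍(R'))) ≤ Nat.card (cj g T₀) := fun R' h => by
      rw [card_cj, hT₀.card_eq]; exact hmax₀ R' h
    have hT1 : cj g T₀ ≠ ⊥ := fun h => hR (normalPCompl_of_piGrp_compl (hT.eq_bot_iff.1 h))
    suffices h : M ≤ 𝐍(cj g R₀) by
      have : cj g R₀ = R₀ := by
        have := cj_eq_of_mem_normalizer (h (inv_mem hg)); rw [cj_inv_cj] at this; exact this.symm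
      rwa [this] at h
    generalize cj g R₀ = R at *
    generalize cj g T₀ = T at *
    by_contra hn
    have hlt : M ⊓ 𝐍(R) < M := lt_of_le_of_ne inf_le_left fun e => hn (inf_eq_left.1 e)
    have hTp := hT.isPGroup hp.out
    refine hR (ih (P := T) (by have := card_lt_of_lt' hlt; omega) hT ?_ ?_)
    all_goals by_cases e : T = P
    · subst e; exact hC.of_le (inf_le_inf_right _ inf_le_left)
    · have h1 := lt_inf_normalizer_pgroup hPp (lt_of_le_of_ne hgT e)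
      have h3 : NormalPCompl p (M ⊓ 𝐍(omega1 p 𝐙(T))) := by
        by_contra h
        have h4 := hmax _ ⟨(omega1_center_le p T).trans (hgT.trans hP.le),
          hT.piGrp.of_le (omega1_center_le p T), omega1_center_ne_bot hTp hT1, h⟩
        have h5 := (hP.piGrp.inf_left 𝐍(T)).card_dvd_piPart (M := M ⊓ 𝐍(omega1 p 𝐙(T)))
          (inf_le_inf hP.le (norms_omega1 (norms_center le_rfl)))
        have := Nat.le_of_dvd (piPart_pos _ _) h5
        have := card_lt_of_lt' h1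
        omega
      exact h3.of_le (inf_le_inf inf_le_left (centralizer_le_normalizer _))
    · subst e; exact hJ.of_le (inf_le_inf_right _ inf_le_left)
    · have h1 := lt_inf_normalizer_pgroup hPp (lt_of_le_of_ne hgT e)
      have h3 : NormalPCompl p (M ⊓ 𝐍(Je p T)) := by
        by_contra h
        have h4 := hmax _ ⟨(Je_le p T).trans (hgT.trans hP.le),
          hT.piGrp.of_le (Je_le p T), Je_ne_bot hTp hT1, h⟩
        have h5 := (hP.piGrp.inf_left 𝐍(T)).card_dvd_piPart (M := M ⊓ 𝐍(Je p T))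
          (inf_le_inf hP.le (norm_le_norm_Je T))
        have := Nat.le_of_dvd (piPart_pos _ _) h5
        have := card_lt_of_lt' h1
        omega
      exact h3.of_le (inf_le_inf_right _ inf_le_left)
  set H := piCoreOf {p} M with hH
  have nH : H ⊴ M := piCoreOf_normalIn _ _
  have pH : PiGrp {p} H := piCoreOf_piGrp _ _
  have HP : H ≤ P := hP.piCoreOf_le
  have H1 : H ≠ ⊥ := by
    have hne : 𝒰.Nonempty := by
      by_contra h
      exact hM (frobenius_npc fun R h1 h2 h3 => by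
        by_contra h4; exact h ⟨R, h1, h2, h3, h4⟩)
    obtain ⟨R, hR, hmax⟩ := Set.exists_max_image 𝒰 (fun R => piPart {p} (Nat.card ↥(M ⊓ 𝐍(R))))
      (Set.toFinite _) hne
    exact piCoreOf_ne_bot ⟨hR.1, hb R hR hmax⟩ hR.2.1 hR.2.2.1
  -- (c) `M / H` has a normal `p`-complement
  have hc1 : ∀ U : Subgroup (Quo H), U ⊴ P /ₛ H → U ≠ ⊥ → NormalPCompl p ((M /ₛ H) ⊓ 𝐍(U)) := by
    intro U hU U1
    obtain ⟨X, h1, h3, rfl⟩ := exists_quo_eq_normal (nH.of_le HP hP.le) hU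
    rw [← quo_inf_norm h1]
    refine NormalPCompl.quo ?_ H
    by_contra h
    have hX : X ∈ 𝒰 := ⟨h3.le.trans hP.le, hP.piGrp.of_le h3.le, fun e => U1 (by
      rw [e]; exact quo_eq_bot_of_le bot_le), h⟩
    have := hb X hX fun R' _ => by
      rw [← (hP.of_le (le_inf hP.le h3.norm) inf_le_left).card_eq, hP.card_eq]
      exact Nat.le_of_dvd (piPart_pos _ _) (piPart_dvd_piPart _ (card_ne_zero' _)
        (card_dvd_of_le' inf_le_left))
    exact U1 (quo_eq_bot_of_le (le_piCoreOf ⟨hX.1, this⟩ hX.2.1))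
  have hPq : SylowIn p (P /ₛ H) (M /ₛ H) := hP.quo (hP.le.trans nH.norm)
  have hq : NormalPCompl p (M /ₛ H) := by
    by_cases e : P /ₛ H = ⊥
    · exact normalPCompl_of_piGrp_compl (hPq.eq_bot_iff.1 e)
    have pq := hPq.isPGroup hp.out
    refine ih (by have := card_quo_lt_of_normalIn nH H1; omega) hPq ?_ ?_
    · exact (hc1 _ ⟨omega1_center_le _ _, norms_omega1 (norms_center le_normalizer)⟩
        (omega1_center_ne_bot pq e)).of_le (inf_le_inf_left _ (centralizer_le_normalizer _))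
    · exact hc1 _ ⟨Je_le _ _, le_normalizer.trans (norm_le_norm_Je _)⟩ (Je_ne_bot pq e)
  -- (d) `C_M(H) ≤ H` and `P` is maximal
  set K := coq H (piCoreOf {p}ᶜ (M /ₛ H)) with hK
  have nK : K ⊴ M := coq_normalIn nH (piCoreOf_normalIn _ _)
  have hCH : M ⊓ 𝐂(H) ≤ H := by
    have nC : M ⊓ 𝐂(H) ⊴ M := normalIn_inf_of_norm (norms_cent nH.norm)
    have nCK : M ⊓ 𝐂(H) ⊓ K ⊴ M := nC.inf nK
    have hs : SylowIn p H K := isPiHallOf_mk (le_coq _) pH (by
      rw [← card_quo (coq_le_norm _), quo_coq]; exact piCoreOf_piGrp _ _)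
    have hs' : SylowIn p (H ⊓ (M ⊓ 𝐂(H) ⊓ K)) (M ⊓ 𝐂(H) ⊓ K) :=
      hs.inf_normal (nCK.of_le inf_le_right nK.le)
    have h1 := hs'.normalPCompl_of_cent (inf_le_left.trans (inf_le_left.trans (inf_le_right.trans
      (cent_mono inf_le_left))))
    have h3 : piCoreOf {p}ᶜ (M ⊓ 𝐂(H) ⊓ K) = ⊥ := eq_bot_iff.2 (hO ▸ piCoreOf_le_of_normalIn _ nCK)
    have h4 : PiGrp {p} (M ⊓ 𝐂(H) ⊓ K) := by
      have := h1.piNum; rwa [h3, relIndex_bot_left] at this
    refine le_piCoreOf nC (piGrp_of_relIndex (A := K) (by rwa [inf_comm]) ?_)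
    refine PiNum.of_dvd ?_ (relIndex_dvd_of_norm nK.le inf_le_left (inf_le_left.trans nK.norm))
    rw [hK, relIndex_coq nH.norm]; exact hq.piNum
  have hmaxP : ∀ L, P ≤ L → L ≤ M → NormalPCompl p L → L = P := fun L h1 h3 h4 => by
    have h5 : piCoreOf {p}ᶜ L ≤ H := le_trans (le_inf ((piCoreOf_le _ _).trans h3)
      (cents_symm ((nH.of_le (HP.trans h1) h3).cents_piCoreOf (by rwa [compl_compl])))) hCH
    have h6 : piCoreOf {p}ᶜ L = ⊥ := (pH.of_le h5).eq_bot (piCoreOf_piGrp _ _)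
    have h7 : PiGrp {p} L := by have := h4.piNum; rwa [h6, relIndex_bot_left] at this
    exact hP.eq_of_le h1 h3 h7
  have hmaxP' : ∀ L, P ≤ L → L < M → L = P := fun L h1 h3 => hmaxP L h1 h3.le
    (ih (by have := card_lt_of_lt' h3; omega) (hP.of_le h1 h3.le) (hC.of_le (inf_le_inf_right _ h3.le))
      (hJ.of_le (inf_le_inf_right _ h3.le)))
  have K1 : piCoreOf {p}ᶜ (M /ₛ H) ≠ ⊥ := fun e => hM (normalPCompl_of_piGrp (piGrp_of_quo nH.norm pH (by
    have := hq.piNum; rwa [e, relIndex_bot_left] at this)))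
  obtain ⟨q, hq', hqd⟩ := exists_prime_dvd_card K1
  obtain ⟨Q, hQ, nQ⟩ := (copAct_p_right (hPq.le.trans (piCoreOf_norm _ _)) (piCoreOf_piGrp {p}ᶜ (M /ₛ H))
    hPq.piGrp).exists_sylowIn q
  haveI := Fact.mk hq'
  have Z1 : 𝐙(Q) ≠ ⊥ := center_ne_bot_pgroup (hQ.isPGroup hq') (hQ.ne_bot hq' hqd)
  have Zp : PiGrp {p}ᶜ 𝐙(Q) := (piCoreOf_piGrp _ _).of_le (inf_le_left.trans hQ.le)
  obtain ⟨Z, nHZ, ZM, eZ⟩ := exists_quo_eq (K := H) nH.le (U := 𝐙(Q))
    (inf_le_left.trans (hQ.le.trans (piCoreOf_le _ _)))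
  have nZ : P ≤ 𝐍(Z) := (quo_norms_iff_of_le (hP.le.trans nH.norm) nHZ).1 (eZ ▸ norms_center nQ)
  have hZP : Z ⊔ P = M := by
    by_contra h
    have := hmaxP' _ le_sup_right (lt_of_le_of_ne (sup_le ZM hP.le) h)
    have h3 : 𝐙(Q) ≤ P /ₛ H := eZ ▸ quo_mono H (le_sup_left.trans this.le)
    exact Z1 ((hPq.piGrp.of_le h3).eq_bot Zp)
  -- (e) the module `V = Ω₁ Z(H)`
  set V := omega1 p 𝐙(H) with hV
  have nV : M ≤ 𝐍(V) := norms_omega1 (norms_center nH.norm)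
  have eV : IsElementaryAbelian p V := omega1_center_elemAb p H
  have VP : V ≤ P := (omega1_center_le p H).trans HP
  have hCV : M ⊓ 𝐂(V) ≤ H := by
    have h1 : omega1 p 𝐙(P) ≤ V := omega1_mono (le_inf (le_trans (le_inf (inf_le_left.trans hP.le)
      (inf_le_right.trans (cent_mono HP))) hCH) (inf_le_right.trans (cent_mono HP)))
    have h3 := hmaxP _ (le_inf hP.le (cents_symm (omega1_center_le_cent p P))) inf_le_left hC
    exact le_piCoreOf (normalIn_inf_of_norm (norms_cent nV))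
      (hP.piGrp.of_le (h3 ▸ inf_le_inf_left _ (cent_mono h1)))
  have HV : H ≤ 𝐂(V) := cents_symm (omega1_center_le_cent p H)
  have hne : ∃ A, A ∈ AE p P ∧ ¬ A ≤ H := by
    by_contra h
    push Not at h
    obtain ⟨A₀, hA₀⟩ := exists_elem_pRank p P
    have e : Je p H = Je p P := by
      have : P ⊓ H = H := inf_eq_right.2 HP
      rw [← this]
      exact le_antisymm (sSup_le fun A hA => le_Je ((AE_inf hA₀ (h _ hA₀)).1 hA).1)
        (sSup_le fun A hA => le_Je ((AE_inf hA₀ (h _ hA₀)).2 ⟨hA, h A hA⟩))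
    rw [← e, inf_eq_left.2 (nH.norm.trans (norm_le_norm_Je H))] at hJ
    exact hM hJ
  obtain ⟨A, hA, hmax⟩ := Set.exists_max_image {A | A ∈ AE p P ∧ ¬ A ≤ H} (fun A => Nat.card ↥(A ⊓ V))
    (Set.toFinite _) hne
  have VV : ⁅V, V⁆ = ⊥ := abelian_iff_der.1 eV.1
  have hn : V ≤ 𝐍(A) := by
    by_contra hn
    obtain ⟨A', h1, h3, h4⟩ := replacement h2 hPp ⟨VP, hP.le.trans nV⟩ eV.2 (VV ▸ bot_le) hA.1
      (VV ▸ bot_le) hn
    have h5 : A' ≤ H := by
      by_contra h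
      exact (card_lt_of_lt' h3).not_ge (hmax A' ⟨h1, h⟩)
    refine hn (le_trans (fun x hx => ?_) h4)
    exact (Elem.maxElem h1 le_rfl).mem_of_cent (VP hx) (cents_symm (h5.trans HV) hx) (eV.2 x hx)
  have AM : A ≤ M := hA.1.1.trans hP.le
  have hAZ : ⁅A, Z⁆ ≤ H := by
    refine commutator_le.2 fun a ha y hy => hCV ⟨?_, ?_⟩
    · exact M.mul_mem (M.mul_mem (M.mul_mem (AM ha) (ZM hy)) (M.inv_mem (AM ha))) (M.inv_mem (ZM hy))
    refine comm_le_cent_of_quadratic h2 eV (ZM.trans nV) ?_ ?_ (nV (AM ha)) (nZ (hA.1.1 ha)) ?_ hy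
    · exact ((abelian_quo_iff nHZ.norm).1 (eZ ▸ abelian_center Q)).trans HV
    · intro hd
      have h1 : 𝐂(V).relIndex Z ∣ H.relIndex Z := relIndex_dvd_of_le_left Z HV
      rw [← card_quo nHZ.norm, ← eZ] at h1
      exact (piGrp_compl_singleton hp.out).1 Zp (hd.trans h1)
    · intro v hv
      have : ⁅a, v⁆ ∈ A := by
        rw [commutatorElement_def, mul_assoc, mul_assoc, ← mul_assoc v]
        exact mul_mem ha (conj_mem_of_mem_normalizer (hn hv) (inv_mem ha))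
      exact cent_le_cent1 ha (abelian_iff.1 hA.1.2.1.1 this)
  have hD : (P /ₛ H) ⊓ 𝐂(Z /ₛ H) = ⊥ := by
    refine eq_bot_of_piCoreOf_eq_bot (piCoreOf_quo_self {p} M) ⟨inf_le_left.trans hPq.le, ?_⟩
      (hPq.piGrp.inf_left _)
    change M /ₛ H ≤ _
    rw [show M /ₛ H = (Z ⊔ P) /ₛ H by rw [hZP], quo_sup nHZ.norm (hP.le.trans nH.norm)]
    exact sup_le (norms_of_cents (cents_symm inf_le_right))
      (norms_inf le_normalizer (norms_cent (quo_norms H nZ)))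
  refine hA.2 ((quo_eq_bot_iff (AM.trans nH.norm)).1 (eq_bot_iff.2 (hD ▸ le_inf (quo_mono H hA.1.1) ?_)))
  exact quo_cents_of_comm_le (AM.trans nH.norm) nHZ.norm hAZ

/-- Thompson's normal `p`-complement theorem. -/
theorem thompson_npc {G : Type*} [Group G] [Finite G] {p : ℕ} [hp : Fact p.Prime] (h2 : p ≠ 2)
    {M P : Subgroup G} (hP : SylowIn p P M) (hC : NormalPCompl p (M ⊓ 𝐂(omega1 p 𝐙(P))))
    (hJ : NormalPCompl p (M ⊓ 𝐍(Je p P))) : NormalPCompl p M :=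
  thompson_aux h2 _ le_rfl hP hC hJ

theorem fpf_aux {r : ℕ} (hr : r.Prime) (n : ℕ) :
    ∀ {G : Type u} [Group G] [Finite G] {K : Subgroup G} {x : G}, Nat.card K ≤ n → x ∈ 𝐍(K) →
      orderOf x = r → K ⊓ 𝐂[x] = ⊥ → Group.IsNilpotent K := by
  induction n with
  | zero => intro G _ _ K x h; exact absurd (card_pos' K) (by omega)
  | succ n ih =>
  intro G _ _ K x hc hx ho hf
  have hcard : (Nat.card (zpowers x)).Prime := by rw [Nat.card_zpowers, ho]; exact hr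
  have hf' : K ⊓ 𝐂(zpowers x) = ⊥ := by rwa [cent_zpowers]
  refine BG.nilpotent_of_prime_regular (zpowers_le.2 hx) ?_ hcard hf'
  by_contra hs
  have h1 : ∀ L, L < K → x ∈ 𝐍(L) → Group.IsNilpotent L := fun L h1 h2 =>
    ih (by have := card_lt_of_lt' h1; omega) h2 ho (eq_bot_iff.2 (hf ▸ inf_le_inf_right _ h1.le))
  have h2 : ∀ L, L ⊴ K → x ∈ 𝐍(L) → L ≠ ⊥ → L = K := fun L hL hxL L1 => by
    by_contra h
    have hn := h1 L (lt_of_le_of_ne hL.le h) hxL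
    have hq := cent1_quo_eq_bot hx hxL hL hf
    have ho' : orderOf (qel L x) = r := by
      have hd : orderOf (qel L x) ∣ r := ho ▸ orderOf_pel_dvd _ hxL
      refine ((Nat.dvd_prime hr).1 hd).resolve_left fun e => h (le_antisymm hL.le ?_)
      rw [orderOf_eq_one_iff.1 e, cent1_one, inf_top_eq] at hq
      exact (quo_eq_bot_iff hL.norm).1 hq
    have := ih (K := K /ₛ L) (by have := card_quo_lt_of_normalIn hL L1; omega)
      (quo_norms L (zpowers_le.2 hx) (qel_mem_quo L (mem_zpowers x))) ho' hq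
    exact hs (solvable_of_quo hL.norm inferInstance inferInstance)
  obtain ⟨p, hp, hd, hp2⟩ : ∃ p : ℕ, p.Prime ∧ p ∣ Nat.card K ∧ p ≠ 2 := by
    by_contra h
    push Not at h
    exact hs (PiGrp.solvable (p := 2) fun p h1 h2 => h p h1 h2)
  haveI := Fact.mk hp
  have hK : ¬ PiGrp {p} K := fun h => hs h.solvable
  obtain ⟨P, hP, nP⟩ := (copAct_right (zpowers_le.2 hx)
    ((semiregular_of_prime_card hcard hf').coprime (zpowers_le.2 hx)) inferInstance).exists_sylowIn p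
  have P1 := hP.ne_bot hp hd
  have h3 : ∀ X, X ≤ P → X ≠ ⊥ → x ∈ 𝐍(X) → NormalPCompl p (K ⊓ 𝐍(X)) := fun X a b c => by
    refine normalPCompl_of_nilpotent (h1 _ (lt_of_le_of_ne inf_le_left fun e => hK ?_)
      (norms_inf (zpowers_le.2 hx) (norms_norm (zpowers_le.2 c)) (mem_zpowers x))) p
    rw [← h2 X ⟨a.trans hP.le, inf_eq_left.1 e⟩ c b]
    exact hP.piGrp.of_le a
  have h4 := thompson_npc hp2 hP
    ((h3 _ (omega1_center_le p P) (omega1_center_ne_bot (hP.isPGroup hp) P1)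
      (norms_omega1 (norms_center nP) (mem_zpowers x))).of_le
      (inf_le_inf_left _ (centralizer_le_normalizer _)))
    (h3 _ (Je_le p P) (Je_ne_bot (hP.isPGroup hp) P1) (norm_le_norm_Je P (nP (mem_zpowers x))))
  by_cases e : piCoreOf {p}ᶜ K = ⊥
  · have := h4.piNum; rw [e, relIndex_bot_left] at this; exact hK this
  · have := h2 _ (piCoreOf_normalIn _ _) (norm_le_norm_piCoreOf _ _ hx) e
    exact (piGrp_compl_singleton hp).1 (this ▸ piCoreOf_piGrp {p}ᶜ K) hd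

/-- Thompson: a group with a fixed-point-free automorphism of prime order is nilpotent. -/
theorem nilpotent_of_fpf_prime {G : Type*} [Group G] [Finite G] {K : Subgroup G} {x : G} (hx : x ∈ 𝐍(K))
    (ho : (orderOf x).Prime) (hf : K ⊓ 𝐂[x] = ⊥) : Group.IsNilpotent K :=
  fpf_aux ho _ le_rfl hx rfl hf

/-- Thompson: Frobenius kernels are nilpotent. -/
theorem nilpotent_of_semiregular {G : Type*} [Group G] [Finite G] {K R : Subgroup G} (hn : R ≤ 𝐍(K))
    (hR : R ≠ ⊥) (hreg : Semiregular K R) : Group.IsNilpotent K := by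
  obtain ⟨x, hx, ho⟩ := exists_prime_order_mem hR
  exact nilpotent_of_fpf_prime (hn hx) ho (hreg x hx fun e => by
    rw [e, orderOf_one] at ho; exact Nat.not_prime_one ho)

theorem _root_.CA.Frob.ker_nilpotent {G : Type*} [Group G] [Finite G] {M K H : Subgroup G} (h : Frob M K H) :
    Group.IsNilpotent K := nilpotent_of_semiregular h.norm h.2.2.1 h.2.2.2

end CA.Loc
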