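import Cfsg.Agent.Lib.G.Frob
import Cfsg.Agent.Lib.G.Fcore
import Cfsg.Agent.Lib.G.PLen
import Cfsg.Agent.Lib.G.GenCent
import Cfsg.Agent.Lib.G.Transfer
import Cfsg.Agent.Lib.BG.S03
import Cfsg.Prelude.Def_LieExceptional

/-! CN-groups: groups in which the centralizer of every non-identity element is nilpotent. -/

namespace CA.CN
open Cfsg Subgroup CA

universe u v

section basic
variable {G : Type u} [Group G] [Finite G] {A B E H K M : Subgroup G} {x y : G} {p : ℕ}

theorem cn_cent (h : IsCNGroup G) (hA : Group.IsNilpotent A) (hx : x ∈ A) (h1 : x ≠ 1)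
    (hxy : y * x = x * y) (hc : (Nat.card A).Coprime (orderOf y)) : y ∈ 𝐂(A) := by
  obtain ⟨z, hz, z1⟩ := exists_ne_one_mem' (center_ne_bot_nil hA (ne_bot_of_mem hx h1))
  have hzA : z ∈ A := (mem_inf.1 hz).1
  have hzc : z ∈ 𝐂(A) := (mem_inf.1 hz).2
  have hyz : z * y = y * z :=
    comm_of_coprime_nil (h x h1) (mem_cent1_iff.2 (mem_cent_iff'.1 hzc x hx))
      (mem_cent1_iff.2 hxy) (hc.coprime_dvd_left (orderOf_dvd_card_of_mem hzA))
  rw [mem_cent_iff]
  intro a ha
  exact comm_of_coprime_nil (h z z1) (mem_cent1_iff.2 (mem_cent_iff.1 hzc a ha))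
    (mem_cent1_iff.2 hyz.symm) (hc.coprime_dvd_left (orderOf_dvd_card_of_mem ha))

theorem cn_cents (h : IsCNGroup G) (hA : Group.IsNilpotent A) (hB : Group.IsNilpotent B)
    (hc : (Nat.card A).Coprime (Nat.card B)) (hx : x ∈ A) (x1 : x ≠ 1) (hy : y ∈ B) (y1 : y ≠ 1)
    (hxy : x * y = y * x) : A ≤ 𝐂(B) := by
  have h1 : y ∈ 𝐂(A) :=
    cn_cent h hA hx x1 hxy.symm (hc.coprime_dvd_right (orderOf_dvd_card_of_mem hy))
  intro a ha
  exact cn_cent h hB hy y1 (mem_cent_iff.1 h1 a ha)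
    (hc.symm.coprime_dvd_right (orderOf_dvd_card_of_mem ha))

omit [Finite G] in
theorem cn_nil_of_cent (h : IsCNGroup G) (h1 : x ≠ 1) (hA : A ≤ 𝐂[x]) : Group.IsNilpotent A :=
  nilpotent_of_le (h x h1) hA

omit [Finite G] in
theorem cn_nil_cent (h : IsCNGroup G) (hA : A ≠ ⊥) : Group.IsNilpotent 𝐂(A) := by
  obtain ⟨x, hx, x1⟩ := exists_ne_one_mem' hA
  exact cn_nil_of_cent h x1 (cent_le_cent1 hx)

omit [Finite G] in
theorem nil_map {G' : Type v} [Group G'] (f : G →* G') (hA : Group.IsNilpotent A) :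
    Group.IsNilpotent (A.map f) :=
  Group.nilpotent_of_surjective _ (f.subgroupMap_surjective A)

/-- The CN property passes to the quotient by a normal `p`-subgroup. -/
theorem cn_of_surj_p {G' : Type v} [Group G'] (h : IsCNGroup G) (f : G →* G')
    (hf : Function.Surjective f) (hp : p.Prime) (hV : PiGrp {p} f.ker) : IsCNGroup G' := by
  haveI : Finite G' := Finite.of_surjective f hf
  have key : ∀ t : G', (orderOf t).Prime → Group.IsNilpotent 𝐂[t] := by
    intro t ht
    have t1 : t ≠ 1 := fun e => by rw [e, orderOf_one] at ht; exact Nat.not_prime_one ht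
    obtain ⟨x0, hx0⟩ := hf t
    set q := orderOf t with hq
    set x := constt {q} x0 with hxd
    have hx : f x = t := by
      rw [hxd, map_constt, hx0]
      exact constt_eq_self ((piElt_of_orderOf_prime ht rfl).2 rfl)
    have hxq : PiElt {q} x := constt_piElt _ _
    have hxV : x ∉ f.ker := fun e => t1 (hx ▸ e)
    have x1 : x ≠ 1 := fun e => hxV (e ▸ one_mem _)
    have nV : ∀ X : Subgroup G, X ≤ 𝐍(f.ker) := fun X =>
      le_top.trans (normalIn_top f.ker).norm
    have hC : 𝐂[t] = (𝐂[t].comap f).map f := (map_comap_eq_self_of_surjective hf _).symm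
    by_cases hqp : q = p
    · rw [hC]
      apply nil_map
      set C := 𝐂[t].comap f with hCd
      have hxC : x ∈ C := by rw [hCd, mem_comap, hx]; exact self_mem_cent1 t
      have hVC : f.ker ≤ C := fun v hv => by
        rw [hCd, mem_comap, (MonoidHom.mem_ker).1 hv]; exact one_mem _
      obtain ⟨P, hP, hxP⟩ := exists_sylowIn_ge (Q := zpowers x) (M := C) (p := p)
        (piGrp_zpowers.2 (hqp ▸ hxq)) (zpowers_le_of_mem hxC)
      have hxP' : x ∈ P := hxP (mem_zpowers x)
      have hVP : f.ker ≤ P := hP.normal_le ⟨hVC, nV C⟩ hV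
      have hPn := hP.piGrp.nilpotent
      obtain ⟨z, hz, z1⟩ := exists_ne_one_mem' (center_ne_bot_nil hPn (ne_bot_of_mem hxP' x1))
      have hzP : z ∈ P := (mem_inf.1 hz).1
      have hzc : z ∈ 𝐂(P) := (mem_inf.1 hz).2
      refine cn_nil_of_cent h z1 (le_of_forall_sylowIn_le fun r hr _ => ?_)
      by_cases hrp : r = p
      · exact ⟨P, hrp ▸ hP, mem_cent_iff_le_cent1.1 hzc⟩
      · obtain ⟨R, hR⟩ := exists_sylowIn r C
        refine ⟨R, hR, fun y hy => ?_⟩
        have hyp : PiElt {p}ᶜ y := (hR.piGrp.piElt hy).mono (by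
          intro s hs; rw [Set.mem_singleton_iff] at hs; subst hs; exact hrp)
        have hyC : f y ∈ 𝐂[t] := hR.le hy
        have cop : CopAct f.ker (zpowers y) := copAct_p_left (nV _) hV (piGrp_zpowers.2 hyp)
        obtain ⟨r, hr, c, hc, e⟩ := cop.exists_cent_mul (x := x) (by
          intro a ha
          have : f a ∈ 𝐂[t] := by
            obtain ⟨k, rfl⟩ := ha
            rw [map_zpow]; exact zpow_mem hyC k
          rw [MonoidHom.mem_ker, map_mul, map_mul, map_mul, map_inv, map_inv, hx,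
            ← mem_cent1_iff.1 this]
          group)
        have hcP : c ∈ P := by
          have : c = r⁻¹ * x := by rw [e]; group
          rw [this]; exact mul_mem (inv_mem (hVP hr)) hxP'
        have c1 : c ≠ 1 := fun e1 => hxV (by rw [e, e1, mul_one]; exact hr)
        have hyP : y ∈ 𝐂(P) := cn_cent h hPn hcP c1 (mem_cent_iff.1 hc y (mem_zpowers y))
          (hP.piGrp.piNum.coprime hyp)
        exact cent_le_cent1 hzP hyP
    · have cop : CopAct f.ker (zpowers x) := copAct_p_left (nV _) hV (piGrp_zpowers.2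
        (hxq.mono (by intro s hs; rw [Set.mem_singleton_iff] at hs; subst hs; exact hqp)))
      refine nilpotent_of_le (nil_map f (h x x1)) fun s hs => ?_
      obtain ⟨c, rfl⟩ := hf s
      obtain ⟨r, hr, d, hd, e⟩ := cop.exists_cent_mul (x := c) (by
        intro a ha
        have : f c ∈ 𝐂[f a] := by
          obtain ⟨k, rfl⟩ := ha
          rw [map_zpow, hx, ← cent_zpowers] at *
          exact cent_mono (zpowers_le_of_mem (zpow_mem (mem_zpowers t) k)) hs
        rw [MonoidHom.mem_ker, map_mul, map_mul, map_mul, map_inv, map_inv,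
          mem_cent1_iff.1 this]
        group)
      rw [cent_zpowers] at hd
      exact ⟨d, hd, by rw [e, map_mul, (MonoidHom.mem_ker).1 hr, one_mul]⟩
  intro t t1
  obtain ⟨s, hs, hsp⟩ := exists_prime_order_mem (A := zpowers t) (by simpa using t1)
  refine nilpotent_of_le (key s hsp) ?_
  rw [← cent_zpowers t]
  exact cent_le_cent1 hs

end basic

theorem cn_of_surj_aux {G' : Type v} [Group G'] (n : ℕ) : ∀ {G : Type u} [Group G] [Finite G],
    Nat.card G ≤ n → IsCNGroup G → ∀ f : G →* G', Function.Surjective f →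
      Group.IsSolvable f.ker → IsCNGroup G' := by
  induction n with
  | zero => intro G _ _ hn; exact absurd (Nat.card_pos (α := G)) (by omega)
  | succ n ih =>
    intro G _ _ hn h f hf hs
    by_cases h1 : f.ker = ⊥
    · exact cn_of_surj_p h f hf Nat.prime_two (h1 ▸ piGrp_bot _)
    · obtain ⟨M, hM, hm, p, hp, -, he⟩ := exists_elemAb_norm (H := ⊤) hs h1 (normalIn_top _).norm
      haveI : M.Normal := normal_of_top_le_norm hm.norm
      have hq : IsCNGroup (G ⧸ M) := cn_of_surj_p h (QuotientGroup.mk' M)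
        (QuotientGroup.mk'_surjective M) hp
        (by rw [QuotientGroup.ker_mk']; exact (pgroup_of_elemAb he).piGrp hp)
      refine ih (G := G ⧸ M) ?_ hq (QuotientGroup.lift M f hM) ?_ ?_
      · have h2 := M.card_mul_index
        have h3 : 1 < Nat.card M := one_lt_card_iff_ne_bot'.2 hm.ne_bot
        have h4 : 0 < M.index := Nat.pos_of_ne_zero M.index_ne_zero_of_finite
        have h5 : Nat.card (G ⧸ M) = M.index := rfl
        nlinarith
      · exact QuotientGroup.lift_surjective_of_surjective M f hf hM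
      · rw [QuotientGroup.ker_lift]
        exact Group.isSolvable_of_surjective (MonoidHom.subgroupMap_surjective _ _)

section main
variable {G : Type u} [Group G] [Finite G] {A B E H K M : Subgroup G} {x y : G} {p : ℕ}

theorem cn_of_surj {G' : Type v} [Group G'] (h : IsCNGroup G) (f : G →* G')
    (hf : Function.Surjective f) (hs : Group.IsSolvable f.ker) : IsCNGroup G' :=
  cn_of_surj_aux _ le_rfl h f hf hs

theorem cn_quot (h : IsCNGroup G) (H : Subgroup G) [H.Normal] (hH : Group.IsSolvable H) :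
    IsCNGroup (G ⧸ H) :=
  cn_of_surj h (QuotientGroup.mk' H) (QuotientGroup.mk'_surjective H)
    (by rwa [QuotientGroup.ker_mk'])

omit [Finite G] in
theorem cn_subgroup (h : IsCNGroup G) (M : Subgroup G) : IsCNGroup M := by
  intro g g1
  have h1 : (g : G) ≠ 1 := fun e => g1 (Subtype.ext e)
  rw [← subgroupOf_cent1]
  have := nilpotent_of_le (h g h1) (inf_le_left : 𝐂[(g : G)] ⊓ M ≤ _)
  rw [← inf_subgroupOf_right]
  exact Group.nilpotent_of_mulEquiv (subgroupOfEquivOfLe inf_le_right).symm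

theorem cn_Quo (h : IsCNGroup G) (hH : Group.IsSolvable H) : IsCNGroup (Quo H) :=
  cn_quot (cn_subgroup h _) _
    ((solvable_congr (subgroupOfEquivOfLe (normalIn_normalizer H).le)).2 hH)

/-- An involution acting without fixed points inverts. -/
theorem inverts_of_cent1_eq_bot (hx : x ∈ 𝐍(H)) (h2 : x * x = 1) (h : H ⊓ 𝐂[x] = ⊥) (hy : y ∈ H) :
    x * y * x⁻¹ = y⁻¹ := by
  obtain ⟨c, -, rfl⟩ := exists_comm_of_cent1_eq_bot hx h hy
  have : x⁻¹ = x := inv_eq_of_mul_eq_one_right h2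
  calc x * (c * x * c⁻¹ * x⁻¹) * x⁻¹ = x * c * x * c⁻¹ * (x * x)⁻¹ := by group
    _ = x * c * x⁻¹ * c⁻¹ := by rw [h2, this]; group
    _ = _ := by group

/-- A semiregular group of operators has at most one involution. -/
theorem invol_unique (hn : E ≤ 𝐍(H)) (hH : H ≠ ⊥) (hreg : Semiregular H E) (hx : x ∈ E)
    (x1 : x ≠ 1) (x2 : x * x = 1) (hy : y ∈ E) (y1 : y ≠ 1) (y2 : y * y = 1) : x = y := by
  by_contra hne
  have h1 : y⁻¹ * x ≠ 1 := fun e => hne (inv_mul_eq_one.1 e).symm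
  apply hH
  rw [← hreg _ (mul_mem (inv_mem hy) hx) h1]
  refine (inf_eq_left.2 fun a ha => mem_cent1_iff.2 ?_).symm
  have e1 := inverts_of_cent1_eq_bot (hn hx) x2 (hreg x hx x1) ha
  have e2 := inverts_of_cent1_eq_bot (hn hy) y2 (hreg y hy y1) ha
  calc a * (y⁻¹ * x) = y⁻¹ * (y * a * y⁻¹) * x := by group
    _ = y⁻¹ * (x * a * x⁻¹) * x := by rw [e1, e2]
    _ = _ := by group

/-- A nontrivial semiregular group of operators has a central element of prime order. -/
theorem exists_central_of_semiregular (hn : E ≤ 𝐍(H)) (hH : H ≠ ⊥) (hE : E ≠ ⊥)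
    (hreg : Semiregular H E) : ∃ z ∈ E, (orderOf z).Prime ∧ z ∈ 𝐂(E) := by
  rcases Nat.even_or_odd (Nat.card E) with he | ho
  · obtain ⟨t, ht, ho⟩ := exists_orderOf_eq_prime Nat.prime_two he.two_dvd
    have t2 : t * t = 1 := by rw [← pow_two, ← ho]; exact pow_orderOf_eq_one t
    have t1 : t ≠ 1 := fun e => by rw [e, orderOf_one] at ho; omega
    refine ⟨t, ht, ho ▸ Nat.prime_two, mem_cent_iff.2 fun a ha => ?_⟩
    have := invol_unique hn hH hreg (x := a * t * a⁻¹) (mul_mem (mul_mem ha ht) (inv_mem ha))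
      (fun e => t1 (by simpa using e))
      (by calc a * t * a⁻¹ * (a * t * a⁻¹) = a * (t * t) * a⁻¹ := by group
        _ = 1 := by rw [t2]; group) ht t1 t2
    calc a * t = a * t * a⁻¹ * a := by group
      _ = _ := by rw [this]
  · have h1 : Nat.card E ≠ 1 := (one_lt_card_iff_ne_bot'.2 hE).ne'
    have hp := Nat.minFac_prime h1
    obtain ⟨z, hz, ho'⟩ := exists_orderOf_eq_prime hp (Nat.minFac_dvd (Nat.card E))
    have hc : Nat.card (zpowers z) = (Nat.card E).minFac := by rw [Nat.card_zpowers, ho']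
    have hN := BG.odd_regular_norm_prime ho hH hn hreg (zpowers_le_of_mem hz) (hc ▸ hp)
    have hd := relIndex_cent_dvd_pred_of_prime hp hc hN
    have hd2 : 𝐂(zpowers z).relIndex E ∣ Nat.card E :=
      Dvd.intro_left _ (card_inf_mul_relIndex _ _)
    have h3 : 𝐂(zpowers z).relIndex E = 1 := by
      by_contra hne
      have hq := Nat.minFac_prime hne
      have h4 := Nat.minFac_le_of_dvd hq.two_le ((Nat.minFac_dvd _).trans hd2)
      have h5 := Nat.le_of_dvd (by have := hp.two_le; omega) ((Nat.minFac_dvd _).trans hd)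
      have := hp.two_le
      omega
    refine ⟨z, hz, ho' ▸ hp, ?_⟩
    exact cents_symm (relIndex_eq_one.1 h3) (mem_zpowers z)

theorem cn_nil_of_semiregular (h : IsCNGroup G) (hn : E ≤ 𝐍(H)) (hH : H ≠ ⊥)
    (hreg : Semiregular H E) : Group.IsNilpotent E := by
  by_cases hE : E = ⊥
  · rw [hE]; exact nilpotent_bot
  · obtain ⟨z, -, hp, hc⟩ := exists_central_of_semiregular hn hH hE hreg
    exact cn_nil_of_cent h (fun e => by rw [e, orderOf_one] at hp; exact Nat.not_prime_one hp)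
      (mem_cent_iff_le_cent1.1 hc)

/-! ### maximal nilpotent subgroups -/

theorem maxnil_hall (h : IsCNGroup G) (hH : Group.IsNilpotent H)
    (hmax : ∀ L : Subgroup G, Group.IsNilpotent L → H ≤ L → L = H) : HallIn H ⊤ := by
  refine hallIn_top_iff.2 (coprime_iff_forall_prime.2 fun p hp hd => ?_)
  have D := dprod_piCoreOf_of_nilpotent hH {p}
  have hP := hall_piCoreOf_of_nilpotent hH {p}
  obtain ⟨S, hS, hPS⟩ := exists_sylowIn_ge (M := ⊤) hP.piGrp le_top
  have hQn : Group.IsNilpotent (piCoreOf {p}ᶜ H) := nilpotent_of_le hH (piCoreOf_le _ _)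
  have hSQ : S ≤ 𝐂(piCoreOf {p}ᶜ H) := by
    by_cases hQ : piCoreOf {p}ᶜ H = ⊥
    · rw [hQ, cent_bot']; exact le_top
    · obtain ⟨x, hx, x1⟩ := exists_ne_one_mem' (hP.ne_bot hp rfl hd)
      obtain ⟨y, hy, y1⟩ := exists_ne_one_mem' hQ
      exact cn_cents h hS.piGrp.nilpotent hQn (hS.piGrp.coprime (piCoreOf_piGrp _ _)) (hPS hx) x1
        hy y1 (mem_cent_iff.1 (D.cent hy) x hx)
  have he := hmax _ (nilpotent_sup_of_cents hQn hS.piGrp.nilpotent hSQ)
    (D.sup_eq.symm.le.trans (sup_le (hPS.trans le_sup_right) le_sup_left))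
  have hSH : S ≤ H := he ▸ le_sup_right
  intro hi
  refine hS.not_dvd hp (hi.trans ?_)
  rw [relIndex_top_right]
  exact index_dvd_of_le hSH

theorem maxnil_cent1 (h : IsCNGroup G) (hH : Group.IsNilpotent H)
    (hmax : ∀ L : Subgroup G, Group.IsNilpotent L → H ≤ L → L = H)
    (hpp : ¬ IsPrimePow (Nat.card H)) (hx : x ∈ H) (x1 : x ≠ 1) : 𝐂[x] ≤ H := by
  obtain ⟨s, hs, hp⟩ := exists_prime_order_mem (A := zpowers x) (by simpa using x1)
  have hsH : s ∈ H := zpowers_le_of_mem hx hs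
  have s1 : s ≠ 1 := fun e => by rw [e, orderOf_one] at hp; exact Nat.not_prime_one hp
  refine le_trans (by rw [← cent_zpowers x]; exact cent_le_cent1 hs) (?_ : 𝐂[s] ≤ H)
  set p := orderOf s with hpd
  have D := dprod_piCoreOf_of_nilpotent hH {p}
  have hsP : s ∈ piCoreOf {p} H :=
    (mem_piCoreOf_of_nilpotent hH hsH).2 ((piElt_of_orderOf_prime hp rfl).2 rfl)
  have hQ : piCoreOf {p}ᶜ H ≠ ⊥ := by
    intro e
    have h1 := D.sup_eq
    rw [e, sup_bot_eq] at h1
    obtain ⟨k, hk⟩ := (piGrp_singleton_iff_card hp).1 (piCoreOf_eq_self_iff.1 h1)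
    refine hpp ⟨p, k, hp.prime, Nat.pos_of_ne_zero fun k0 => ?_, hk.symm⟩
    rw [k0, pow_zero] at hk
    exact ne_bot_of_mem hx x1 (card_eq_one.1 hk)
  have key : ∀ {A B : Subgroup G}, DProd A B H → A ≠ ⊥ → ∃ z ∈ A, z ∈ 𝐂(A) ∧ 𝐂[z] = H := by
    intro A B D hA
    obtain ⟨z, hz, z1⟩ := exists_ne_one_mem'
      (center_ne_bot_nil (nilpotent_of_le hH D.left_le) hA)
    refine ⟨z, (mem_inf.1 hz).1, (mem_inf.1 hz).2, hmax _ (h z z1) ?_⟩
    rw [← D.sup_eq]
    exact sup_le (mem_cent_iff_le_cent1.1 (mem_inf.1 hz).2)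
      (D.cent.trans (cent_le_cent1 (mem_inf.1 hz).1))
  obtain ⟨z, hz, hzc, hze⟩ := key D (ne_bot_of_mem hsP s1)
  obtain ⟨w, hw, -, hwe⟩ := key D.symm hQ
  have hC := h s s1
  have hzC : z ∈ 𝐂[s] := cent_le_cent1 hsP hzc
  have hwC : w ∈ 𝐂[s] := cent_le_cent1 hsP (D.cent hw)
  rw [← (dprod_piCoreOf_of_nilpotent hC {p}).sup_eq]
  refine sup_le (fun a ha => hwe ▸ mem_cent1_iff.2 ?_) (fun a ha => hze ▸ mem_cent1_iff.2 ?_)
  · exact comm_of_coprime_nil hC (piCoreOf_le _ _ ha) hwC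
      (PiNum.coprime ((piCoreOf_piGrp _ _).piElt ha) ((piCoreOf_piGrp _ _).piElt hw))
  · exact comm_of_coprime_nil hC (piCoreOf_le _ _ ha) hzC
      (PiNum.coprime' ((piCoreOf_piGrp _ _).piElt ha) ((piCoreOf_piGrp _ _).piElt hz))

theorem maxnil_ti (h : IsCNGroup G) (hH : Group.IsNilpotent H)
    (hmax : ∀ L : Subgroup G, Group.IsNilpotent L → H ≤ L → L = H)
    (hpp : ¬ IsPrimePow (Nat.card H)) {g : G} (hg : cj g H ≠ H) : H ⊓ cj g H = ⊥ := by
  by_contra hne
  obtain ⟨x, hx, x1⟩ := exists_ne_one_mem' hne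
  have key : ∀ y ∈ cj g H, y ≠ 1 → 𝐂[y] ≤ cj g H := by
    intro y hy y1
    obtain ⟨a, ha, rfl⟩ := mem_cj'.1 hy
    rw [← cj_centralizer_singleton]
    exact cj_mono g (maxnil_cent1 h hH hmax hpp ha fun e => y1 (by simp [e]))
  obtain ⟨z, hz, z1⟩ := exists_ne_one_mem'
    (center_ne_bot_nil hH (ne_bot_of_mem (mem_inf.1 hx).1 x1))
  have h1 : z ∈ cj g H := key x (mem_inf.1 hx).2 x1 (cent_le_cent1 (mem_inf.1 hx).1 (mem_inf.1 hz).2)
  have h2 : H ≤ cj g H := (mem_cent_iff_le_cent1.1 (mem_inf.1 hz).2).trans (key z h1 z1)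
  exact hg (eq_of_le_of_card_eq h2 (card_cj g H).symm).symm

theorem maxnil_cent1_of_ti (h : IsCNGroup G) (hH : Group.IsNilpotent H)
    (hmax : ∀ L : Subgroup G, Group.IsNilpotent L → H ≤ L → L = H)
    (hti : ∀ g, cj g H ≠ H → H ⊓ cj g H = ⊥) (hx : x ∈ H) (x1 : x ≠ 1) : 𝐂[x] ≤ H := by
  intro c hc
  have hcN : c ∈ 𝐍(H) := by
    rw [mem_normalizer_iff_cj]
    by_contra hne
    refine ne_bot_of_mem (mem_inf.2 ⟨hx, ?_⟩) x1 (hti c hne)
    exact mem_cj'.2 ⟨x, hx, by rw [mem_cent1_iff.1 hc]; group⟩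
  have hall := (maxnil_hall h hH hmax).isPiHallOf
  set π := primesOf (Nat.card H)
  rw [← constt_mul_compl π c]
  refine mul_mem (hall.mem_of_mem_norm (constt_mem π hcN) (mem_top _) (constt_piElt _ _)) ?_
  have h1 : constt πᶜ c ∈ 𝐂(H) := cn_cent h hH hx x1 (mem_cent1_iff.1 (constt_mem _ hc))
    (hall.piGrp.piNum.coprime (constt_piElt _ _))
  have := hmax _ (nilpotent_sup_of_cents hH (nilpotent_of_abelian (abelian_zpowers _))
    (zpowers_le_of_mem h1)) le_sup_left
  exact this ▸ mem_sup_right (mem_zpowers _)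

/-! ### normal Sylow subgroups -/

theorem cn_frob (h : IsCNGroup G) (hnn : ¬ Group.IsNilpotent G)
    (hH : fittingHallOf (⊤ : Subgroup G) ≠ ⊥) :
    ∃ E, Frob ⊤ (fittingHallOf (⊤ : Subgroup G)) E ∧ Group.IsNilpotent E := by
  set H := fittingHallOf (⊤ : Subgroup G)
  have hHn : Group.IsNilpotent H := Fcore_nilpotent _
  obtain ⟨E, sd⟩ := (Fcore_hallIn (⊤ : Subgroup G)).exists_sdprod (Fcore_norm _)
  have hc : (Nat.card H).Coprime (Nat.card E) := sd.hallIn_left_iff.1 (Fcore_hallIn _)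
  have hreg : Semiregular H E := by
    refine semiregular_of_prime fun x hx hq => ?_
    by_contra hne
    obtain ⟨y, hy, y1⟩ := exists_ne_one_mem' hne
    have x1 : x ≠ 1 := fun e => by rw [e, orderOf_one] at hq; exact Nat.not_prime_one hq
    obtain ⟨Q, hQ, hxQ⟩ := exists_sylowIn_ge (Q := zpowers x) (M := ⊤) (p := orderOf x)
      (piGrp_zpowers.2 ((piElt_of_orderOf_prime hq rfl).2 rfl)) le_top
    have hqH : PiGrp {orderOf x}ᶜ H := (piGrp_compl_singleton_iff_coprime hq).2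
      (hc.coprime_dvd_right (orderOf_dvd_card_of_mem hx))
    have h1 : Q ≤ 𝐂(H) := cn_cents h hQ.piGrp.nilpotent hHn (hQ.piGrp.coprime hqH)
      (hxQ (mem_zpowers x)) x1 (mem_inf.1 hy).1 y1 (mem_cent1_iff.1 (mem_inf.1 hy).2).symm
    have h2 : ⊤ ≤ 𝐍(Q) :=
      ((hQ.of_le h1 le_top).charIn_of_nilpotent (cn_nil_cent h hH)).norms
        (norms_cent (Fcore_norm _))
    exact ne_bot_of_mem (mem_inf.2 ⟨hQ.le_Fcore h2 (hxQ (mem_zpowers x)), hx⟩) x1 sd.inf_eq
  have hE : E ≠ ⊥ := by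
    intro e
    have : H ⊔ E = ⊤ := sd.sup_eq
    rw [e, sup_bot_eq] at this
    rw [this] at hHn
    exact hnn (Group.nilpotent_of_mulEquiv topEquiv)
  exact ⟨E, ⟨sd, hH, hE, hreg⟩, cn_nil_of_semiregular h sd.norm hH hreg⟩

theorem nil_quot_of_compl [K.Normal] (sd : SDProd K E ⊤) (hE : Group.IsNilpotent E) :
    Group.IsNilpotent (G ⧸ K) := by
  have := nil_map (QuotientGroup.mk' K) hE
  have h1 : E.map (QuotientGroup.mk' K) = ⊤ := by
    rw [eq_top_iff]
    intro t _
    obtain ⟨g, rfl⟩ := QuotientGroup.mk'_surjective K t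
    obtain ⟨k, hk, a, ha, rfl⟩ := sd.exists_mul (mem_top g)
    refine ⟨a, ha, ?_⟩
    rw [map_mul, QuotientGroup.mk'_apply K k, (QuotientGroup.eq_one_iff k).2 hk, one_mul]
  rw [h1] at this
  exact Group.nilpotent_of_mulEquiv topEquiv

/-! ### groups all of whose elements have prime-power order -/

theorem eq_one_of_primePow (h : ∀ g : G, IsPrimePow (orderOf g) ∨ g = 1) (hxy : x * y = y * x)
    (hc : (orderOf x).Coprime (orderOf y)) : x = 1 ∨ y = 1 := by
  have ho := Commute.orderOf_mul_eq_mul_orderOf_of_coprime (hxy : Commute x y) hc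
  have hx := orderOf_pos x
  have hy := orderOf_pos y
  rcases h (x * y) with h1 | h1
  · rw [ho] at h1
    rcases (hc.isPrimePow_dvd_mul h1).1 dvd_rfl with h2 | h2
    · right
      have := Nat.le_of_dvd hx h2
      exact orderOf_eq_one_iff.1 (by nlinarith)
    · left
      have := Nat.le_of_dvd hy h2
      exact orderOf_eq_one_iff.1 (by nlinarith)
  · rw [h1, orderOf_one] at ho
    exact Or.inl (orderOf_eq_one_iff.1 (Nat.eq_one_of_mul_eq_one_right ho.symm))

theorem card_primeFactors_le_two (hs : Group.IsSolvable G)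
    (h : ∀ g : G, IsPrimePow (orderOf g) ∨ g = 1) : (Nat.card G).primeFactors.card ≤ 2 := by
  have hs' : Group.IsSolvable (⊤ : Subgroup G) := solvable_top_iff.2 hs
  by_cases h1 : (⊤ : Subgroup G) = ⊥
  · rw [← card_top, h1, card_bot]; simp
  obtain ⟨V, -, hm, p, hp, -, he⟩ := exists_elemAb_norm (H := ⊤) hs' h1 norms_top
  obtain ⟨K, hK⟩ := exists_hall {p}ᶜ hs'
  have hV : PiGrp {p} V := (pgroup_of_elemAb he).piGrp hp
  have hreg : Semiregular V K := semiregular_iff.2 fun x hx v hv e =>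
    eq_one_of_primePow h e (PiNum.coprime' (hK.piGrp.piElt hx) (hV.piElt hv))
  obtain ⟨q, hq⟩ : ∃ q : ℕ, ∀ r, r.Prime → r ∣ Nat.card K → r = q := by
    by_cases hK1 : K = ⊥
    · exact ⟨0, fun r hr hd => by
        rw [hK1, card_bot] at hd; exact absurd (Nat.dvd_one.1 hd) hr.ne_one⟩
    obtain ⟨z, -, hq, hc⟩ := exists_central_of_semiregular (le_top.trans hm.norm) hm.ne_bot hK1 hreg
    refine ⟨orderOf z, fun r hr hd => ?_⟩
    obtain ⟨y, hy, ho⟩ := exists_orderOf_eq_prime hr hd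
    by_contra hne
    rcases eq_one_of_primePow h (mem_cent_iff.1 hc y hy)
      (by rw [ho]; exact (Nat.coprime_primes hr hq).2 hne) with e | e
    · rw [e, orderOf_one] at ho; exact hr.ne_one ho.symm
    · rw [e, orderOf_one] at hq; exact Nat.not_prime_one hq
  refine (Finset.card_le_card (t := {p, q}) fun r hr => ?_).trans Finset.card_le_two
  have hr' := Nat.prime_of_mem_primeFactors hr
  by_cases hrp : r = p
  · simp [hrp]
  · have := hq r hr' (hK.prime_dvd hr' hrp (by rw [card_top]; exact Nat.dvd_of_mem_primeFactors hr))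
    simp [this]

end main

end CA.CN
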