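import Cfsg.Agent.Lib.Loc.CN
import Cfsg.Agent.Lib.G.PGroup
import Cfsg.Agent.Lib.Classical.Quat

/-! 2-groups with a unique involution; solvable CN-groups. -/

namespace CA.CN
open Cfsg Subgroup CA

theorem arith_inv {m : ℕ} {r k : ℤ} (h1 : (2 : ℤ) ^ m ∣ (r + 1) * (r - 1))
    (h2 : (2 : ℤ) ^ m ∣ k * (r - 1)) (h3 : ∀ j : ℤ, ¬ (2 : ℤ) ^ m ∣ j * (r + 1) + k)
    (h4 : ¬ (2 : ℤ) ^ m ∣ r - 1) : (2 : ℤ) ^ m ∣ r + 1 := by
  obtain ⟨s, hs, he⟩ := (Nat.dvd_prime_pow Nat.prime_two).1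
    (show Int.gcd (r + 1) (2 ^ m) ∣ 2 ^ m by
      have := Int.gcd_dvd_natAbs_right (r + 1) (2 ^ m)
      simpa using this)
  have hb := Int.gcd_eq_gcd_ab (r + 1) (2 ^ m)
  have hl := Int.gcd_dvd_left (r + 1) (2 ^ m)
  rw [he] at hb hl
  push_cast at hb hl
  set α := Int.gcdA (r + 1) (2 ^ m)
  set β := Int.gcdB (r + 1) (2 ^ m)
  have h5 : ¬ (2 : ℤ) ^ s ∣ k := by
    rintro ⟨c, rfl⟩
    exact h3 (-(α * c)) ⟨β * c, by rw [hb]; ring⟩
  have h6 : (2 : ℤ) ^ m ∣ 2 ^ s * (r - 1) := by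
    obtain ⟨c, hc⟩ := h1
    exact ⟨c * α + β * (r - 1), by rw [hb]; linear_combination α * hc⟩
  rcases hs.eq_or_lt with rfl | hlt
  · exact hl
  exfalso
  match s, hlt, h5, h6, hl with
  | 0, _, h5, _, _ => exact h5 (by simp)
  | 1, _, h5, h6, _ =>
    obtain ⟨c, hc⟩ : Odd k := by
      rw [← Int.not_even_iff_odd, even_iff_two_dvd]; simpa using h5
    apply h4
    have := dvd_sub h2 (h6.mul_left c)
    rwa [show k * (r - 1) - c * (2 ^ 1 * (r - 1)) = r - 1 by rw [hc]; ring] at this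
  | s + 2, hlt, h5, _, ⟨w, hw⟩ =>
    obtain ⟨d, rfl⟩ := Nat.exists_eq_add_of_lt hlt
    have h7 : k * (r - 1) = 2 * (k * (2 * (2 ^ s * w) - 1)) := by
      linear_combination k * hw
    rw [h7, pow_succ', mul_dvd_mul_iff_left two_ne_zero] at h2
    have h8 : IsCoprime ((2 : ℤ) ^ (s + 2 + d)) (2 * (2 ^ s * w) - 1) :=
      IsCoprime.pow_left ⟨2 ^ s * w, -1, by ring⟩
    exact h5 ((pow_dvd_pow 2 (by omega)).trans (h8.dvd_of_dvd_mul_right h2))

theorem cyclic_or_quat {Q : Type*} [Group Q] [Finite Q] (hp : IsPGroup 2 Q)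
    (hab : ∀ A : Subgroup Q, IsMulCommutative A → IsCyclic A)
    (hu : ∀ x y : Q, x ≠ 1 → x * x = 1 → y ≠ 1 → y * y = 1 → x = y) :
    IsCyclic Q ∨ ∃ n : ℕ, Nonempty (Q ≃* QuaternionGroup (2 ^ n)) := by
  haveI : Fact (Nat.Prime 2) := ⟨Nat.prime_two⟩
  obtain ⟨A, hA⟩ := exists_isSCN (P := (⊤ : Subgroup Q)) (p := 2) (hp.to_subgroup ⊤)
  have hcyc := hab A hA.abelian
  by_cases hT : A = ⊤
  · left
    rw [hT] at hcyc
    exact isCyclic_of_surjective topEquiv topEquiv.surjective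
  right
  obtain ⟨a, ha, rfl⟩ := isCyclic_iff_exists_zpowers.1 hcyc
  have hcent : ∀ x : Q, x * a = a * x → x ∈ zpowers a := fun x hx => by
    rw [← hA.cent_eq, cent_zpowers]
    exact mem_inf.2 ⟨mem_top _, mem_cent1_iff.2 hx⟩
  have hconj : ∀ x : Q, ∃ r : ℤ, x * a * x⁻¹ = a ^ r := fun x => by
    obtain ⟨r, hr⟩ := conj_mem_of_mem_normalizer (hA.norm (mem_top x)) ha
    exact ⟨r, hr.symm⟩
  obtain ⟨m, hm⟩ := (IsPGroup.iff_orderOf.1 hp) a
  have hz : ∀ i : ℤ, a ^ i = 1 ↔ (2 : ℤ) ^ m ∣ i := fun i => by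
    rw [← orderOf_dvd_iff_zpow_eq_one, hm]; push_cast; rfl
  obtain ⟨x0, hx0⟩ : ∃ x, x ∉ zpowers a := by
    by_contra hne
    push Not at hne
    exact hT (eq_top_iff.2 fun x _ => hne x)
  -- `a` has order at least four
  have hm2 : 2 ≤ m := by
    by_contra hlt
    apply hx0 (hcent x0 _)
    obtain ⟨r, hr⟩ := hconj x0
    have h2 : a * a = 1 := by
      rw [← pow_two, ← orderOf_dvd_iff_pow_eq_one, hm]
      exact (pow_dvd_pow 2 (by omega : m ≤ 1)).trans (by norm_num)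
    by_cases a1 : a = 1
    · simp [a1]
    have := hu (x0 * a * x0⁻¹) a (fun e => a1 (by simpa using e))
      (by calc x0 * a * x0⁻¹ * (x0 * a * x0⁻¹) = x0 * (a * a) * x0⁻¹ := by group
        _ = 1 := by rw [h2]; group) a1 h2
    calc x0 * a = x0 * a * x0⁻¹ * x0 := by group
      _ = _ := by rw [this]
  obtain ⟨n, rfl⟩ : ∃ n, m = n + 1 := ⟨m - 1, by omega⟩
  have t1 : a ^ 2 ^ n ≠ 1 := fun e => by
    have := orderOf_dvd_of_pow_eq_one e
    rw [hm, Nat.pow_dvd_pow_iff_le_right one_lt_two] at this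
    omega
  have t2 : a ^ 2 ^ n * a ^ 2 ^ n = 1 := by
    rw [← pow_add, ← two_mul, ← pow_succ', ← hm, pow_orderOf_eq_one]
  have hsq : ∀ x : Q, x ∉ zpowers a → x * x ≠ 1 := fun x hx e =>
    hx (hu x _ (fun e => hx (e ▸ one_mem _)) e t1 t2 ▸ pow_mem ha _)
  have hinv : ∀ x : Q, x ∉ zpowers a → x * x ∈ zpowers a → x * a * x⁻¹ = a⁻¹ := by
    intro x hx ⟨k, hk⟩
    obtain ⟨r, hr⟩ := hconj x
    have hk : a ^ k = x * x := hk
    have hr' : ∀ j : ℤ, x * a ^ j * x⁻¹ = a ^ (r * j) := fun j => by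
      rw [← conj_zpow, hr, zpow_mul]
    have := arith_inv (m := n + 1) (r := r) (k := k) ((hz _).1 ?_) ((hz _).1 ?_) (fun j hj => ?_)
      (fun h4 => ?_)
    · rw [← hz, zpow_add, zpow_one] at this
      rw [hr]
      exact eq_inv_of_mul_eq_one_left this
    · have h1 : a ^ (r * r) = a := by
        rw [← hr', ← hr]
        calc x * (x * a * x⁻¹) * x⁻¹ = x * x * a * (x * x)⁻¹ := by group
          _ = a := by rw [← hk]; group
      rw [show (r + 1) * (r - 1) = r * r - 1 by ring, zpow_sub, h1]; group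
    · have h1 : a ^ (r * k) = a ^ k := by rw [← hr', hk]; group
      rw [show k * (r - 1) = r * k - k by ring, zpow_sub, h1]; group
    · refine hsq (x * a ^ j) (fun h => hx ?_) ?_
      · exact (mul_mem_cancel_right (zpow_mem ha j)).1 h
      · rw [← hz] at hj
        calc x * a ^ j * (x * a ^ j) = x * a ^ j * x⁻¹ * (x * x) * a ^ j := by group
          _ = a ^ (j * (r + 1) + k) := by rw [hr', ← hk]; group
          _ = 1 := hj
    · rw [← hz, zpow_sub, zpow_one, mul_inv_eq_one] at h4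
      apply hx (hcent x _)
      calc x * a = x * a * x⁻¹ * x := by group
        _ = _ := by rw [hr, h4]
  have hsqA : ∀ (i : ℕ) (y : Q), y ^ 2 ^ i ∈ zpowers a → y * y ∈ zpowers a := by
    intro i
    induction i with
    | zero => intro y hy; rw [pow_zero, pow_one] at hy; exact mul_mem hy hy
    | succ i ih =>
      intro y hy
      rw [pow_succ', pow_mul, pow_two] at hy
      by_contra hne
      have h1 := hinv _ hne (ih _ hy)
      obtain ⟨r, hr⟩ := hconj y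
      have h2 : a ^ (r * r + 1) = 1 := by
        have : a ^ (r * r) = a⁻¹ := by
          rw [← h1, zpow_mul, ← hr, conj_zpow, ← hr]; group
        rw [zpow_add, this]; group
      have h3 : (4 : ℤ) ∣ r * r + 1 :=
        (show (4 : ℤ) ∣ 2 ^ (n + 1) from pow_dvd_pow 2 hm2).trans ((hz _).1 h2)
      rcases Int.even_or_odd' r with ⟨c, rfl | rfl⟩
      · have : 2 * c * (2 * c) + 1 = 4 * (c * c) + 1 := by ring
        omega
      · have : (2 * c + 1) * (2 * c + 1) + 1 = 4 * (c * c + c) + 2 := by ring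
        omega
  have hsq' : ∀ y : Q, y * y ∈ zpowers a := fun y => by
    obtain ⟨i, hi⟩ := hp y
    exact hsqA i y (hi ▸ one_mem _)
  have hinv' : ∀ x : Q, x ∉ zpowers a → x * a * x⁻¹ = a⁻¹ := fun x hx => hinv x hx (hsq' x)
  have hidx : (zpowers a).index = 2 := by
    refine index_eq_two_iff.2 ⟨x0, fun b => ?_⟩
    by_cases hb : b ∈ zpowers a
    · exact Or.inr ⟨hb, fun h => hx0 ((mul_mem_cancel_left hb).1 h)⟩
    · refine Or.inl ⟨hcent _ ?_, hb⟩
      calc b * x0 * a = b * (x0 * a * x0⁻¹) * x0 := by group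
        _ = (b * a * b⁻¹)⁻¹ * (b * x0) := by rw [hinv' x0 hx0]; group
        _ = _ := by rw [hinv' b hb, inv_inv]
  refine ⟨n, Quat.nonempty_equiv (x := a) (y := x0) ?_ (by rw [hm, pow_succ']) ?_ ?_ ?_⟩
  · calc 2 = 2 ^ 1 := rfl
      _ ≤ _ := Nat.pow_le_pow_right two_pos (by omega)
  · refine hu _ _ (hsq x0 hx0) ?_ t1 t2
    obtain ⟨k, hk⟩ := hsq' x0
    have hk : a ^ k = x0 * x0 := hk
    have h1 : x0 * a ^ k * x0⁻¹ = (a ^ k)⁻¹ := by rw [← conj_zpow, hinv' x0 hx0, inv_zpow]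
    rw [hk] at h1
    calc x0 * x0 * (x0 * x0) = x0 * (x0 * x0) * x0⁻¹ * (x0 * x0) := by group
      _ = 1 := by rw [h1]; group
  · calc a * x0 = (x0 * a * x0⁻¹)⁻¹ * x0 := by rw [hinv' x0 hx0, inv_inv]
      _ = _ := by group
  · rw [← (zpowers a).card_mul_index, hidx, Nat.card_zpowers, hm, pow_succ]
    omega

variable {G : Type*} [Group G] [Finite G] {E H K Q : Subgroup G} {p : ℕ}

theorem cyclic_or_quat_of_semiregular (hn : Q ≤ 𝐍(H)) (hH : H ≠ ⊥) (hreg : Semiregular H Q)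
    (hQ : PiGrp {2} Q) : IsCyclic Q ∨ ∃ n : ℕ, Nonempty (Q ≃* QuaternionGroup (2 ^ n)) := by
  refine cyclic_or_quat (hQ.isPGroup Nat.prime_two) (fun A hA => ?_) fun x y x1 x2 y1 y2 => ?_
  · have hle : A.map Q.subtype ≤ Q := map_subtype_le A
    have e := A.equivMapOfInjective Q.subtype Q.subtype_injective
    have := (hreg.mono le_rfl hle).isCyclic_of_abelian ((abelian_congr e).1 hA) (hle.trans hn)
      (coprime_of_le_right (hreg.coprime hn) hle) hH
    exact isCyclic_of_surjective e.symm e.symm.surjective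
  · exact Subtype.ext (invol_unique hn hH hreg x.2 (fun e => x1 (Subtype.ext e))
      (congrArg Subtype.val x2) y.2 (fun e => y1 (Subtype.ext e)) (congrArg Subtype.val y2))

theorem cyclic_of_odd_semiregular (hn : E ≤ 𝐍(H)) (hH : H ≠ ⊥) (hreg : Semiregular H E)
    (hE : Group.IsNilpotent E) (ho : Odd (Nat.card E)) : IsCyclic E :=
  cyclic_of_zgroup_of_nilpotent (BG.odd_regular_zgroup ho hH hn hreg) hE

theorem nil_compl_structure (hn : E ≤ 𝐍(H)) (hH : H ≠ ⊥) (hreg : Semiregular H E)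
    (hE : Group.IsNilpotent E) : IsCyclic E ∨ ∃ C Q : Subgroup G, C ⊔ Q = E ∧
      (∀ a ∈ C, ∀ b ∈ Q, a * b = b * a) ∧ IsCyclic C ∧ Odd (Nat.card C) ∧
      ∃ n : ℕ, Nonempty (↥Q ≃* QuaternionGroup (2 ^ n)) := by
  have D := dprod_piCoreOf_of_nilpotent hE {2}
  have ho : Odd (Nat.card (piCoreOf {2}ᶜ E)) := (piCoreOf_piGrp _ _).piNum.odd (by simp)
  have hC : IsCyclic (piCoreOf {2}ᶜ E) := cyclic_of_odd_semiregular (D.right_le.trans hn) hH
    (hreg.mono le_rfl D.right_le) (nilpotent_of_le hE D.right_le) ho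
  rcases cyclic_or_quat_of_semiregular (D.left_le.trans hn) hH (hreg.mono le_rfl D.left_le)
    (piCoreOf_piGrp _ _) with h | h
  · exact Or.inl (D.cyclic_of_coprime ((piCoreOf_piGrp _ _).coprime (piCoreOf_piGrp _ _)) h hC)
  · exact Or.inr ⟨_, _, D.symm.sup_eq, cents_iff.1 D.cent, hC, ho, h⟩

theorem three_step (hs : Group.IsSolvable G) (h : IsCNGroup G) (hnn : ¬ Group.IsNilpotent G)
    (hF : fittingHallOf (⊤ : Subgroup G) = ⊥) : ∃ p : ℕ, p.Prime ∧ IsThreeStepGroup p G := by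
  have hs' : Group.IsSolvable (⊤ : Subgroup G) := solvable_top_iff.2 hs
  have h1 : (⊤ : Subgroup G) ≠ ⊥ := fun e => hnn (by
    have : Group.IsNilpotent (⊤ : Subgroup G) := e ▸ nilpotent_bot
    exact Group.nilpotent_of_mulEquiv topEquiv)
  obtain ⟨p, hp, -, hH⟩ := exists_piCoreOf_singleton_ne_bot hs' h1
  refine ⟨p, hp, ?_⟩
  set H := piCoreOf {p} (⊤ : Subgroup G) with hHd
  have hHp : PiGrp {p} H := piCoreOf_piGrp _ _
  have nH : ∀ X : Subgroup G, X ≤ 𝐍(H) := fun X => le_top.trans (piCoreOf_norm _ _)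
  have nosyl : ∀ P, SylowIn p P ⊤ → ⊤ ≤ 𝐍(P) → False := fun P hP hn =>
    hH (le_bot_iff.1 (hF ▸ hP.piCoreOf_le.trans (hP.le_Fcore hn)))
  have hO : piCoreOf {p}ᶜ (⊤ : Subgroup G) = ⊥ := by
    rw [← fittingOf_eq_bot_iff (solvable_of_le hs' le_top), fittingOf_piCoreOf]
    by_contra hB
    obtain ⟨P, hP⟩ := exists_sylowIn p (⊤ : Subgroup G)
    obtain ⟨x, hx, x1⟩ := exists_ne_one_mem' hH
    obtain ⟨y, hy, y1⟩ := exists_ne_one_mem' hB
    have hBn := (fittingOf_normalIn (⊤ : Subgroup G)).piCoreOf {p}ᶜ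
    have h2 : P ≤ 𝐂(piCoreOf {p}ᶜ (fittingOf ⊤)) :=
      cn_cents h hP.piGrp.nilpotent (nilpotent_of_le (fittingOf_nilpotent _) (piCoreOf_le _ _))
        (hP.piGrp.coprime (piCoreOf_piGrp _ _)) (hP.piCoreOf_le hx) x1 hy y1
        (mem_cent_iff.1 (hBn.cents_piCoreOf (piCoreOf_piGrp _ _) hy) x hx)
    exact nosyl P hP (((hP.of_le h2 le_top).charIn_of_nilpotent (cn_nil_cent h hB)).norms
      (norms_cent hBn.norm))
  have hCH : ⊤ ⊓ 𝐂(H) ≤ H := cent_piCoreOf_le hs' hO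
  obtain ⟨K, hK⟩ := exists_hall {p}ᶜ hs'
  have hHK : H ⊓ K = ⊥ := hHp.inf_eq_bot hK.piGrp
  have hreg : Semiregular H K := semiregular_iff.2 fun y hy x hx e => by
    by_contra hne
    push Not at hne
    have : y ∈ H := hCH (mem_inf.2 ⟨mem_top _, cn_cent h hHp.nilpotent hx hne.2 e
      (hHp.piNum.coprime (hK.piGrp.piElt hy))⟩)
    exact ne_bot_of_mem (mem_inf.2 ⟨this, hy⟩) hne.1 hHK
  have hKn : Group.IsNilpotent K := cn_nil_of_semiregular h (nH _) hH hreg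
  -- the quotient
  have hq : IsCNGroup (Quo H) := cn_Quo h hHp.solvable
  have hMs : Group.IsSolvable ↥((⊤ : Subgroup G) /ₛ H) := solvable_quo hs' _
  have hMn : ¬ Group.IsNilpotent ↥((⊤ : Subgroup G) /ₛ H) := fun hn => by
    have h2 := hall_piCoreOf_of_nilpotent hn {p}
    rw [piCoreOf_quo_self] at h2
    exact nosyl H (isPiHallOf_mk le_top hHp
      ((piGrp_quo_iff_relIndex (nH _)).1 (h2.eq_bot_iff.1 rfl))) (nH _)
  have hKq : IsPiHallOf {p}ᶜ (K /ₛ H) ((⊤ : Subgroup G) /ₛ H) := hK.quo (nH _)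
  set F := fittingOf ((⊤ : Subgroup G) /ₛ H) with hFd
  have hFp : PiGrp {p}ᶜ F :=
    piGrp_fittingOf_of_core_eq_bot (by rw [compl_compl]; exact piCoreOf_quo_self _ _)
  have hFK : F ≤ K /ₛ H := hKq.normal_le (fittingOf_normalIn _) hFp
  set A := K ⊓ coq H F with hAd
  have hAF : A /ₛ H = F := by rw [hAd, pmap_inf_pcomap]; exact inf_eq_right.2 hFK
  have hAK : A ≤ K := inf_le_left
  have hAo : Odd (Nat.card A) := by
    rw [← Nat.not_even_iff_odd]
    intro he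
    obtain ⟨t, ht, ho⟩ := exists_orderOf_eq_prime Nat.prime_two he.two_dvd
    have t2 : t * t = 1 := by rw [← pow_two, ← ho]; exact pow_orderOf_eq_one t
    have t1 : t ≠ 1 := fun e => by rw [e, orderOf_one] at ho; omega
    have tq : qel H t ≠ 1 := fun e =>
      ne_bot_of_mem (mem_inf.2 ⟨(qel_eq_one_iff (nH _ ht)).1 e, hAK ht⟩) t1 hHK
    refine hMn (cn_nil_of_cent hq tq fun g hg => mem_cent1_iff.2 ?_)
    have h2 : g * qel H t * g⁻¹ ∈ A /ₛ H := by
      rw [hAF]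
      exact conj_mem_of_mem_normalizer ((fittingOf_normalIn _).norm hg) (hAF ▸ qel_mem_quo H ht)
    obtain ⟨s, hs, e⟩ := (mem_quo (nH _)).1 h2
    have s1 : s ≠ 1 := fun e1 => tq (by rw [e1, pel_one] at e; simpa using e.symm)
    have s2 : s * s = 1 := by
      rw [← mem_bot, ← hHK]
      refine mem_inf.2 ⟨(qel_eq_one_iff (nH _ (mul_mem hs hs))).1 ?_, hAK (mul_mem hs hs)⟩
      rw [pel_mul _ (nH _ hs) (nH _ hs), e]
      calc g * qel H t * g⁻¹ * (g * qel H t * g⁻¹) = g * (qel H t * qel H t) * g⁻¹ := by group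
        _ = 1 := by rw [← pel_mul _ (nH _ ht) (nH _ ht), t2, pel_one]; group
    rw [invol_unique (nH K) hH hreg (hAK hs) s1 s2 (hAK ht) t1 t2] at e
    calc g * qel H t = g * qel H t * g⁻¹ * g := by group
      _ = _ := by rw [← e]
  have hAc : IsCyclic A := cyclic_of_odd_semiregular (nH _) hH (hreg.mono le_rfl hAK)
    (nilpotent_of_le hKn hAK) hAo
  have hFc : IsCyclic F := hAF ▸ cyclic_quo hAc H
  have hKnorm : K /ₛ H ⊴ (⊤ : Subgroup G) /ₛ H :=
    normalIn_of_der_le ((le_fittingOf_of_cents hMs (der_le _)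
      (der_cents_of_norms_cyclic hFc (fittingOf_normalIn _).norm)).trans hFK) hKq.le
  have hKF : K /ₛ H = F := le_antisymm (le_fittingOf hKnorm (nilpotent_quo hKn H)) hFK
  have hAe : A = K := inf_eq_left.2 ((le_coq_iff (nH _)).2 hKF.le)
  rw [hAe] at hAo hAc
  have hne : H ⊔ K ≠ ⊤ := fun e => hMn (by
    rw [← e, quo_sup_left (nH _)]; exact nilpotent_quo hKn H)
  rw [IsThreeStepGroup, ← piCoreOf_singleton_top hp]
  refine ⟨hH, K, fun e => ?_, hAc, hAo, (piGrp_compl_singleton_iff_coprime hp).1 hK.piGrp,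
    normal_of_top_le_norm ((quo_norms_iff (nH _) (nH _)).1 hKnorm.norm), hne, ?_, hreg, ?_⟩
  · have h2 := hKq.eq_bot_iff.1 (by rw [e, pmap_bot])
    rw [compl_compl] at h2
    exact hMn h2.nilpotent
  · have h2 := hK.piNum_relIndex_of_le (le_sup_right : K ≤ H ⊔ K)
    rw [compl_compl, relIndex_top_right] at h2
    exact (piNum_singleton_iff hp index_ne_zero_of_finite).1 h2
  · intro x hx a ha a1 hc
    apply hx
    have nx : x ∈ 𝐍(H) := nH ⊤ (mem_top x)
    have na : a ∈ 𝐍(H) := nH ⊤ (mem_top a)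
    rw [← qel_mem_quo_iff' nx (nH K)]
    have aq : qel H a ≠ 1 := fun e =>
      ne_bot_of_mem (mem_inf.2 ⟨(qel_eq_one_iff na).1 e, ha⟩) a1 hHK
    have hxc : qel H x ∈ 𝐂[qel H a] := by
      have := qel_eq_one hc
      rw [pel_comm _ nx na] at this
      rw [mem_cent1_iff]
      calc qel H x * qel H a = qel H x * qel H a * (qel H x)⁻¹ * (qel H a)⁻¹ * (qel H a * qel H x) := by
            group
        _ = _ := by rw [this, one_mul]
    have hxM : qel H x ∈ (⊤ : Subgroup G) /ₛ H := qel_mem_quo H (mem_top x)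
    rw [← constt_mul_compl {p} (qel H x)]
    refine mul_mem ?_ (hKq.mem_of_normal hKnorm.norm (constt_mem _ hxM) (constt_piElt _ _))
    have h3 := cn_cent hq (nilpotent_quo hKn H) (qel_mem_quo H ha) aq
      (mem_cent1_iff.1 (constt_mem {p} hxc)) (hKq.piGrp.piNum.coprime' (constt_piElt _ _))
    rw [hKF] at h3 ⊢
    exact cent_le_fittingOf hMs (mem_inf.2 ⟨constt_mem _ hxM, h3⟩)

theorem solvable_cn (hs : Group.IsSolvable G) (h : IsCNGroup G) :
    Group.IsNilpotent G ∨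
      (∃ K E : Subgroup G, K.Normal ∧ IsComplement' K E ∧ IsFrobeniusComplement E ∧
        (IsCyclic E ∨ ∃ C Q : Subgroup G, C ⊔ Q = E ∧ (∀ a ∈ C, ∀ b ∈ Q, a * b = b * a) ∧
          IsCyclic C ∧ Odd (Nat.card C) ∧ ∃ n : ℕ, Nonempty (↥Q ≃* QuaternionGroup (2 ^ n)))) ∨
      ∃ p : ℕ, p.Prime ∧ IsThreeStepGroup p G := by
  by_cases hnn : Group.IsNilpotent G
  · exact Or.inl hnn
  by_cases hF : fittingHallOf (⊤ : Subgroup G) = ⊥
  · exact Or.inr (Or.inr (three_step hs h hnn hF))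
  obtain ⟨E, hE, hn⟩ := cn_frob h hnn hF
  haveI := normalIn_top_iff.1 hE.normalIn
  exact Or.inr (Or.inl ⟨_, E, this, sdprod_top_iff.1 hE.sdprod, hE.isFrobeniusComplement_top,
    nil_compl_structure hE.norm hE.ker_ne_bot hE.reg hn⟩)

end CA.CN
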