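import Cfsg.Agent.Lib.G.PLen
import Cfsg.Prelude.Def_CaseTheorems

/-! Invariant subgroups under self-centralizing subgroups of the Fitting subgroup of a maximal
local subgroup (Bender). -/

namespace CA.MaxLocal
open Cfsg Subgroup CA

variable {G : Type*} [Group G] [Finite G] {H M R Y Q : Subgroup G} {p q : ℕ}

/-- The centre of `O_p(F)`. -/
def zp (p : ℕ) (F : Subgroup G) : Subgroup G := 𝐙(piCoreOf {p} F)

theorem zp_piGrp (p : ℕ) (F : Subgroup G) : PiGrp {p} (zp p F) :=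
  (piCoreOf_piGrp _ _).inf_left _

omit [Finite G] in
theorem zp_le (p : ℕ) (F : Subgroup G) : zp p F ≤ F := inf_le_left.trans (piCoreOf_le _ _)

theorem zp_cent {F : Subgroup G} (hF : Group.IsNilpotent F) : zp p F ≤ 𝐂(F) := by
  conv_rhs => rw [← (dprod_piCoreOf_of_nilpotent hF {p}).sup_eq]
  exact cents_sup inf_le_right (inf_le_left.trans (piCoreOf_cents_compl _ _))

theorem zp_ne_bot {F : Subgroup G} (hF : Group.IsNilpotent F) (hp : p.Prime) (hd : p ∣ Nat.card F) :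
    zp p F ≠ ⊥ :=
  center_ne_bot_nil (nilpotent_of_le hF (piCoreOf_le _ _))
    ((hall_piCoreOf_of_nilpotent hF {p}).ne_bot hp rfl hd)

omit [Finite G] in
theorem norms_zp {F X : Subgroup G} (h : X ≤ 𝐍(F)) : X ≤ 𝐍(zp p F) :=
  norms_center (norms_piCoreOf _ h)

theorem norm_zp_eq (hmax : ∀ L : Subgroup G, IsLocalSubgroup L → H ≤ L → L = H) (hp : p.Prime)
    (hd : p ∣ Nat.card (fittingOf H)) : 𝐍(zp p (fittingOf H)) = H :=
  hmax _ ⟨p, _, hp, (zp_piGrp p _).isPGroup hp, zp_ne_bot (fittingOf_nilpotent H) hp hd, rfl⟩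
    (norms_zp (fittingOf_normalIn H).norm)

theorem cent_zp_le (hmax : ∀ L : Subgroup G, IsLocalSubgroup L → H ≤ L → L = H) (hp : p.Prime)
    (hd : p ∣ Nat.card (fittingOf H)) : 𝐂(zp p (fittingOf H)) ≤ H :=
  (norms_of_cents le_rfl).trans (norm_zp_eq hmax hp hd).le

theorem inv_eq_bot (hM : M ≤ fittingOf H) (hCM : fittingOf H ⊓ 𝐂(M) ≤ M)
    (hR : Group.IsSolvable R) (hXR : H ⊓ 𝐂(fittingOf H) ≤ 𝐍(R)) (hYH : Y ≤ H) (hYR : Y ≤ R)
    (hMY : M ≤ 𝐍(Y)) (hc : (Nat.card (fittingOf H)).Coprime (Nat.card Y)) : Y = ⊥ := by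
  have nF : Y ≤ 𝐍(fittingOf H) := hYH.trans (fittingOf_normalIn H).norm
  have hi : fittingOf H ⊓ Y = ⊥ := inf_eq_bot_of_card_coprime hc
  have h1 : Y ≤ 𝐂(M) := by
    rw [← comm_eq_bot_iff, eq_bot_iff, ← hi]
    exact le_inf ((commutator_mono le_rfl hM).trans (comm_le_right nF)) (comm_le_left hMY)
  have h2 : Y ≤ 𝐂(fittingOf H) :=
    (copAct_left nF hc (solvable_of_nilpotent (fittingOf_nilpotent H))).cents_of_nil_self_cent
      (fittingOf_nilpotent H) hM h1 hCM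
  have hX : H ⊓ 𝐂(fittingOf H) ⊴ H := (fittingOf_normalIn H).cent
  have hXR' : (H ⊓ 𝐂(fittingOf H)) ⊓ R ⊴ H ⊓ 𝐂(fittingOf H) := normalIn_inf_of_norm hXR
  have h3 : fittingOf ((H ⊓ 𝐂(fittingOf H)) ⊓ R) ≤ fittingOf H :=
    (fittingOf_mono_normal hXR').trans (fittingOf_mono_normal hX)
  have h4 : Y ≤ fittingOf H :=
    (le_fittingOf_of_cents (solvable_of_le hR inf_le_right) (le_inf (le_inf hYH h2) hYR)
      (h2.trans (cent_mono h3))).trans h3
  rw [← hi]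
  exact (inf_eq_right.2 h4).symm

theorem inv_le_core (hmax : ∀ L : Subgroup G, IsLocalSubgroup L → H ≤ L → L = H)
    (hF2 : 2 ≤ (Nat.card (fittingOf H)).primeFactors.card) (hM : M ≤ fittingOf H)
    (hCM : fittingOf H ⊓ 𝐂(M) ≤ M) (hR : Group.IsSolvable R) (hMR : M ≤ 𝐍(R))
    (hXR : H ⊓ 𝐂(fittingOf H) ≤ 𝐍(R)) (hQR : Q ≤ R) (hMQ : M ≤ 𝐍(Q))
    (hc : (Nat.card (fittingOf H)).Coprime (Nat.card Q)) :
    Q ≤ piCoreOf (primesNotDvd (Nat.card (fittingOf H))) R := by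
  have hFn := fittingOf_nilpotent H
  have hZM : ∀ r, zp r (fittingOf H) ≤ M := fun r =>
    (le_inf (zp_le _ _) ((zp_cent hFn).trans (cent_mono hM))).trans hCM
  have key : ∀ p, p.Prime → p ∣ Nat.card (fittingOf H) → Q ≤ piCoreOf {p}ᶜ R := by
    intro p hp hd
    obtain ⟨r, hr, hrp⟩ := Finset.exists_mem_ne (s := (Nat.card (fittingOf H)).primeFactors)
      (by omega) p
    have hr' := Nat.prime_of_mem_primeFactors hr
    have hrd := Nat.dvd_of_mem_primeFactors hr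
    have h1 : Q ⊓ 𝐂(zp r (fittingOf H)) = ⊥ :=
      inv_eq_bot hM hCM hR hXR (inf_le_right.trans (cent_zp_le hmax hr' hrd))
        (inf_le_left.trans hQR)
        (norms_inf hMQ (norms_cent (norms_zp (norms_self_of_le hM))))
        (coprime_of_le_right hc inf_le_left)
    have cop : CopAct Q (zp r (fittingOf H)) :=
      copAct_left ((hZM r).trans hMQ) (coprime_of_le_right hc.symm (zp_le _ _))
        (solvable_of_le hR hQR)
    have h2 := cop.comm_eq_self_of_cent_eq_bot h1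
    have hL : Group.IsSolvable ↥(R ⊔ M) :=
      solvable_sup hMR hR (solvable_of_nilpotent (nilpotent_of_le hFn hM))
    have h3 : zp r (fittingOf H) ≤ piCoreOf {p}ᶜ (R ⊔ M) := by
      refine le_trans (le_piCoreOf ⟨le_inf ((hZM r).trans le_sup_right)
        ((zp_cent hFn).trans (cent_mono (zp_le _ _))), ?_⟩ ((zp_piGrp r _).singleton_mono hrp))
        (piCoreOf_cent_le hL ((hZM p).trans le_sup_right) (zp_piGrp p _))
      exact (inf_le_right.trans (cent_zp_le hmax hp hd)).trans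
        (norms_zp (fittingOf_normalIn H).norm)
    rw [← piCoreOf_inf_normal _ (normalIn_sup_left hMR)]
    refine le_inf ?_ hQR
    rw [← h2]
    exact (commutator_mono le_rfl h3).trans
      (comm_le_right ((hQR.trans le_sup_left).trans (piCoreOf_norm _ _)))
  let N : Subgroup G := R ⊓ ⨅ p : {p : ℕ // p.Prime ∧ p ∣ Nat.card (fittingOf H)},
    piCoreOf {p.1}ᶜ R
  have hQN : Q ≤ N := le_inf hQR (le_iInf fun p => key p.1 p.2.1 p.2.2)
  refine hQN.trans (le_piCoreOf (normalIn_inf_of_norm (norms_iInf fun p => piCoreOf_norm _ _))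
    fun p hp hd => ⟨hp, fun hd' => ?_⟩)
  have : N ≤ piCoreOf {p}ᶜ R := inf_le_right.trans (iInf_le_of_le ⟨p, hp, hd'⟩ le_rfl)
  exact ((piCoreOf_piGrp _ _).of_le this).mem hp hd rfl

theorem existsUnique_maxInv (hmax : ∀ L : Subgroup G, IsLocalSubgroup L → H ≤ L → L = H)
    (hF2 : 2 ≤ (Nat.card (fittingOf H)).primeFactors.card) (hM : M ≤ fittingOf H)
    (hCM : fittingOf H ⊓ 𝐂(M) ≤ M) (hR : Group.IsSolvable R) (hMR : M ≤ 𝐍(R))
    (hXR : H ⊓ 𝐂(fittingOf H) ≤ 𝐍(R)) (hq : q.Prime) (hqF : ¬ q ∣ Nat.card (fittingOf H)) :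
    ∃! Q : Subgroup G, Q ∈ maxInvSubgroups R M {q} ∧
      (∀ Q' : Subgroup G, Q' ∈ maxInvSubgroups R M {q} →
        Q' ≤ piCoreOf (primesNotDvd (Nat.card (fittingOf H))) R ∧
        ¬ q ∣ Q'.relIndex (piCoreOf (primesNotDvd (Nat.card (fittingOf H))) R)) := by
  have hFn := fittingOf_nilpotent H
  set K := piCoreOf (primesNotDvd (Nat.card (fittingOf H))) R with hK
  have hKc : (Nat.card K).Coprime (Nat.card (fittingOf H)) :=
    piGrp_primesNotDvd.1 (piCoreOf_piGrp _ _)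
  have hKR : K ≤ R := piCoreOf_le _ _
  have nK : M ≤ 𝐍(K) := norms_piCoreOf _ hMR
  have cop : CopAct K M := copAct_left nK (coprime_of_le_right hKc hM) (solvable_of_le hR hKR)
  have hC : K ⊓ 𝐂(M) = ⊥ := by
    obtain ⟨r, hr⟩ := Finset.card_pos.1 (show 0 < (Nat.card (fittingOf H)).primeFactors.card by omega)
    have hZM : zp r (fittingOf H) ≤ M :=
      (le_inf (zp_le _ _) ((zp_cent hFn).trans (cent_mono hM))).trans hCM
    exact inv_eq_bot hM hCM hR hXR (inf_le_right.trans ((cent_mono hZM).trans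
      (cent_zp_le hmax (Nat.prime_of_mem_primeFactors hr) (Nat.dvd_of_mem_primeFactors hr))))
      (inf_le_left.trans hKR) (norms_inf nK (norms_cent le_normalizer))
      (coprime_of_le_right hKc.symm inf_le_left)
  have syl : ∀ Q ∈ maxInvSubgroups R M {q}, SylowIn q Q K := by
    rintro Q ⟨⟨h1, h2, h3⟩, h4⟩
    have hQK : Q ≤ K := inv_le_core hmax hF2 hM hCM hR hMR hXR h1 h3
      (PiGrp.coprime' ((piGrp_compl_singleton hq).2 hqF) h2)
    exact cop.sylowIn_of_max hQK h2 h3 fun Y hY hq' hn hle => h4 Y ⟨hY.trans hKR, hq', hn⟩ hle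
  obtain ⟨Q, -, hQ, hQm⟩ := exists_maximal_ge (fun Y => Y ∈ invSubgroups R M {q}) (A := ⊥)
    ⟨bot_le, piGrp_bot _, norms_bot⟩
  have hQ' : Q ∈ maxInvSubgroups R M {q} := ⟨hQ, hQm⟩
  refine ⟨Q, ⟨hQ', fun Q' h' => ⟨(syl Q' h').le, (syl Q' h').not_dvd hq⟩⟩, fun Q' h' => ?_⟩
  obtain ⟨c, hc, e⟩ := cop.sylowIn_trans (syl Q hQ') hQ.2.2 (syl Q' h'.1) h'.1.1.2.2
  rw [hC, mem_bot] at hc
  rw [e, hc, cj_one]

end CA.MaxLocal
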