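/-
The transitivity theorem for groups with `p`-constrained `p`-local subgroups (Thompson, Bender).
-/
import Cfsg.Agent.Lib.Loc.Baer

set_option autoImplicit false
set_option linter.unusedSectionVars false
set_option linter.style.haveILetI false
set_option linter.unusedVariables false

namespace CA.Loc

open Cfsg Subgroup CA

variable {G : Type*} [Group G] [Finite G] {p q : ℕ} [hp : Fact p.Prime] {M P K X E : Subgroup G}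

/-- Relative form of `p`-constraint. -/
def PConstr (p : ℕ) (M : Subgroup G) : Prop :=
  ∀ P, SylowIn p P (core2 {p}ᶜ {p} M) → M ⊓ 𝐂(P) ≤ core2 {p}ᶜ {p} M

theorem pConstr_of (h : IsPConstrained p M) : PConstr p M := by
  intro P hP
  have hPM : P ≤ M := hP.le.trans (core2_le _ _ _)
  have h1 : SylowIn p (P.subgroupOf M) (pPrimePCore p M) := by
    rw [SylowIn, ← isPiHallOf_map_iff M.subtype_injective, map_pPrimePCore hp.out,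
      map_subgroupOf_eq_of_le hPM]
    exact hP
  obtain ⟨S, hS⟩ := h1.exists_sylow
  have h2 := h S
  rw [hS, ← subgroupOf_cent hPM] at h2
  rintro x ⟨hx, hx'⟩
  rw [← map_pPrimePCore hp.out]
  exact ⟨⟨x, hx⟩, h2 hx', rfl⟩

theorem pConstr_of_solvable (h : Group.IsSolvable M) : PConstr p M := fun P hP => cent_le_core2 h hP

theorem PConstr.quo (h : PConstr p M) :
    (M /ₛ piCoreOf {p}ᶜ M) ⊓ 𝐂(piCoreOf {p} (M /ₛ piCoreOf {p}ᶜ M)) ≤ piCoreOf {p} (M /ₛ piCoreOf {p}ᶜ M) := by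
  obtain ⟨P, hP⟩ := exists_sylowIn p (core2 {p}ᶜ {p} M)
  have hPM : P ≤ M := hP.le.trans (core2_le _ _ _)
  have hc : CopAct (piCoreOf {p}ᶜ M) P :=
    copAct_p_right (hPM.trans (piCoreOf_norm _ _)) (piCoreOf_piGrp _ _) hP.piGrp
  rw [← hP.quo_eq_of_core2, ← hc.quo_inf_cent_of_le (piCoreOf_le _ _), hP.quo_eq_of_core2,
    ← quo_core2_self]
  exact quo_mono _ (h P hP)

/-- Either `p` is odd or the `p`-subgroups of `M` have class at most two. -/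
def Cl2 (p : ℕ) (M : Subgroup G) : Prop := p ≠ 2 ∨ ∀ T, T ≤ M → PiGrp {p} T → ⁅T, T⁆ ≤ 𝐂(T)

theorem Cl2.of_le (h : Cl2 p M) (hK : K ≤ M) : Cl2 p K :=
  h.imp id fun h T h1 h2 => h T (h1.trans hK) h2

theorem Cl2.quo (h : Cl2 p M) (hK : M ≤ 𝐍(K)) : Cl2 p (M /ₛ K) :=
  h.imp id fun h T h1 h2 => by
    obtain ⟨P, hP, hPp, rfl⟩ := exists_piGrp_singleton_pmap _ hK h2 h1
    rw [← quo_der (hP.trans hK)]
    exact quo_cents _ (h P hP hPp)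

theorem eq_bot_of_inv (hC : M ⊓ 𝐂(piCoreOf {p} M) ≤ piCoreOf {p} M) (h2 : Cl2 p M) (hEM : E ≤ M)
    (hE : PiGrp {p} E) (hfull : ∀ x ∈ M ⊓ 𝐂(E), PiElt {p} x → x ∈ E) (hXM : X ≤ M) (hX : PiGrp {p}ᶜ X)
    (hn : E ≤ 𝐍(X)) : X = ⊥ := by
  set P := piCoreOf {p} M with hPdef
  have hP : PiGrp {p} P := piCoreOf_piGrp _ _
  have hPM : P ≤ M := piCoreOf_le _ _
  have nP : M ≤ 𝐍(P) := piCoreOf_norm _ _
  have h1 : P ⊓ 𝐂(E) ≤ 𝐂(X) := by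
    have h3 : P ⊓ 𝐂(E) ≤ P ⊓ E := fun x hx => ⟨hx.1, hfull x ⟨hPM hx.1, hx.2⟩ (hP.piElt hx.1)⟩
    refine h3.trans (comm_eq_bot_iff.1 (eq_bot_iff.2 ?_))
    rw [← hP.inf_eq_bot hX]
    exact le_inf ((commutator_mono inf_le_left le_rfl).trans (comm_le_left (hXM.trans nP)))
      (comm_le_right (inf_le_right.trans hn))
  have h4 : X ≤ 𝐂(P) := by
    rcases h2 with h2 | h2
    · exact cents_of_cent_odd h2 (hP.isPGroup hp.out) (hE.isPGroup hp.out) hX (hEM.trans nP)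
        (hXM.trans nP) hn h1
    · have h5 := h2 (P ⊔ E) (sup_le hPM hEM) (hP.sup hE (Or.inl (hEM.trans nP)))
      have h6 : ⁅P, E⁆ ≤ 𝐂(P ⊔ E) := (commutator_mono le_sup_left le_sup_right).trans h5
      exact cents_of_cent_class_two (hP.isPGroup hp.out) (hE.isPGroup hp.out) hX (hEM.trans nP)
        (hXM.trans nP) hn h1 (h6.trans (cent_mono le_sup_left)) (h6.trans (cent_mono le_sup_right))
  exact hX.eq_bot (by rw [compl_compl]; exact hP.of_le ((le_inf hXM h4).trans hC))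

theorem PConstr.le_piCoreOf (hC : PConstr p M) (h2 : Cl2 p M) (hEM : E ≤ M)
    (hE : PiGrp {p} E) (hfull : ∀ x ∈ M ⊓ 𝐂(E), PiElt {p} x → x ∈ E) (hXM : X ≤ M) (hX : PiGrp {p}ᶜ X)
    (hn : E ≤ 𝐍(X)) : X ≤ piCoreOf {p}ᶜ M := by
  have nO : M ≤ 𝐍(piCoreOf {p}ᶜ M) := piCoreOf_norm _ _
  have hc : CopAct (piCoreOf {p}ᶜ M) E := copAct_p_right (hEM.trans nO) (piCoreOf_piGrp _ _) hE
  rw [← quo_eq_bot_iff (hXM.trans nO)]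
  refine eq_bot_of_inv hC.quo (h2.quo nO) (quo_mono _ hEM) (hE.quo _) ?_ (quo_mono _ hXM) (hX.quo _)
    (quo_norms _ hn)
  intro z hz hzp
  rw [← hc.quo_inf_cent_of_le (piCoreOf_le _ _)] at hz
  obtain ⟨x, hx, hxp, rfl⟩ := exists_piElt_pel (inf_le_left.trans nO) hz hzp
  exact qel_mem_quo _ (hfull x hx hxp)

theorem exists_maxInvS_ge {R : Subgroup G} (h1 : PiGrp {q} R) (h2 : E ≤ 𝐍(R)) :
    ∃ Q ∈ maxInvSubgroups ⊤ E {q}, R ≤ Q := by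
  obtain ⟨Q, h3, h4, h5⟩ := exists_maximal_ge (fun Q => PiGrp {q} Q ∧ E ≤ 𝐍(Q)) ⟨h1, h2⟩
  exact ⟨Q, ⟨⟨le_top, h4.1, h4.2⟩, fun R h6 => h5 R ⟨h6.2.1, h6.2.2⟩⟩, h3⟩

theorem maxInvS_cj {Q : Subgroup G} {g : G} (h : Q ∈ maxInvSubgroups ⊤ E {q}) (hg : g ∈ 𝐂(E)) :
    cj g Q ∈ maxInvSubgroups ⊤ E {q} := by
  have hn : ∀ {g : G} {R : Subgroup G}, g ∈ 𝐂(E) → E ≤ 𝐍(R) → E ≤ 𝐍(cj g R) := fun {g R} hg hR => by
    rw [← cj_normalizer, ← cj_eq_of_mem_centralizer hg]; exact cj_mono g hR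
  refine ⟨⟨le_top, PiGrp.cj h.1.2.1 g, hn hg h.1.2.2⟩, fun R hR hle => ?_⟩
  have := h.2 (cj g⁻¹ R) ⟨le_top, PiGrp.cj hR.2.1 _, hn (inv_mem hg) hR.2.2⟩ (cj_le_iff.1 hle)
  rw [← this, cj_cj_inv]

theorem trans_aux (hE : PiGrp {p} E) (hr : 3 ≤ pRank p E) (hEc : IsMulCommutative E) (hqp : q ≠ p)
    (hK : ∀ c ∈ 𝐂(E), PiElt {p}ᶜ c → c ∈ K)
    (hW : ∀ u ∈ E, u ≠ 1 → ∃ W, PiGrp {p}ᶜ W ∧ E ≤ 𝐍(W) ∧
      ∀ X, X ≤ 𝐂[u] → PiGrp {p}ᶜ X → E ≤ 𝐍(X) → X ≤ W) (n : ℕ) :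
    ∀ Q₁ ∈ maxInvSubgroups ⊤ E {q}, ∀ Q₂ ∈ maxInvSubgroups ⊤ E {q},
      Nat.card G ≤ Nat.card ↥(Q₁ ⊓ Q₂) + n → ∃ k ∈ K, Q₂ = cj k Q₁ := by
  induction n with
  | zero =>
    intro Q₁ h1 Q₂ h2 hc
    have : Q₁ ⊓ Q₂ = ⊤ := eq_top_of_le_card _ hc
    refine ⟨1, one_mem _, ?_⟩
    rw [cj_one, eq_top_iff.2 (this ▸ inf_le_left : ⊤ ≤ Q₁), eq_top_iff.2 (this ▸ inf_le_right : ⊤ ≤ Q₂)]
  | succ n ih =>
    intro Q₁ h1 Q₂ h2 hc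
    by_cases he : Q₁ = Q₂
    · exact ⟨1, one_mem _, by rw [cj_one, he]⟩
    have hqπ : ∀ {Y : Subgroup G}, PiGrp {q} Y → PiGrp {p}ᶜ Y := fun hY => hY.singleton_mono hqp
    have g1 : PiGrp {q} Q₁ := h1.1.2.1
    have g2 : PiGrp {q} Q₂ := h2.1.2.1
    have n1 : E ≤ 𝐍(Q₁) := h1.1.2.2
    have n2 : E ≤ 𝐍(Q₂) := h2.1.2.2
    set D := Q₁ ⊓ Q₂ with hD
    have nD : E ≤ 𝐍(D) := norms_inf n1 n2
    have l1 : D < Q₁ ⊓ 𝐍(D) := lt_inf_normalizer_nil g1.nilpotent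
      (inf_lt_left.2 fun hle => he (h1.2 _ h2.1 hle).symm)
    have l2 : D < Q₂ ⊓ 𝐍(D) := lt_inf_normalizer_nil g2.nilpotent
      (inf_lt_right.2 fun hle => he (h2.2 _ h1.1 hle))
    obtain ⟨B, hB⟩ := le_pRank_iff.1 hr
    have hC : ∃ C, Elem p 2 C B ∧ ¬ (Q₁ ⊓ 𝐍(D)) ⊓ 𝐂(C) ≤ D := by
      by_contra hh
      push Not at hh
      exact l1.not_ge (le_of_cent_elem_pred hB (hB.le.trans (norms_inf n1 (norms_norm nD)))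
        (hqπ (g1.inf_left _)) hh)
    obtain ⟨C, hC, hC1⟩ := hC
    have hCE : C ≤ E := hC.le.trans hB.le
    have hu : ∃ u ∈ C, u ≠ 1 ∧ ¬ (Q₂ ⊓ 𝐍(D)) ⊓ 𝐂[u] ≤ D := by
      by_contra hh
      push Not at hh
      exact l2.not_ge (le_of_cent1_noncyclic hC.comm (hC.not_isCyclic le_rfl)
        (hCE.trans (norms_inf n2 (norms_norm nD)))
        ((hqπ (g2.inf_left _)).coprime' (hE.of_le hCE)) hh)
    obtain ⟨u, huC, hu1, hu2⟩ := hu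
    have hu3 : ¬ (Q₁ ⊓ 𝐍(D)) ⊓ 𝐂[u] ≤ D := fun hh =>
      hC1 ((inf_le_inf_left _ (cent_le_cent1 huC)).trans hh)
    obtain ⟨W, hWp, nW, hWle⟩ := hW u (hCE huC) hu1
    have nu : E ≤ 𝐍(𝐂[u]) := norms_cent1 (mem_cent_iff_le_cent1.1 (abelian_iff.1 hEc (hCE huC)))
    have key : ∀ {Q : Subgroup G}, PiGrp {q} Q → E ≤ 𝐍(Q) → D ≤ Q → ¬ (Q ⊓ 𝐍(D)) ⊓ 𝐂[u] ≤ D →
        ∃ R, D < R ∧ R ≤ Q ∧ R ≤ D ⊔ (W ⊓ 𝐍(D)) ∧ E ≤ 𝐍(R) := fun {Q} gQ nQ hDQ hh => by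
      have nR : E ≤ 𝐍((Q ⊓ 𝐍(D)) ⊓ 𝐂[u]) := norms_inf (norms_inf nQ (norms_norm nD)) nu
      refine ⟨D ⊔ ((Q ⊓ 𝐍(D)) ⊓ 𝐂[u]), left_lt_sup.2 hh, sup_le hDQ (inf_le_left.trans inf_le_left),
        sup_le_sup_left (le_inf (hWle _ inf_le_right (hqπ ((gQ.inf_left _).inf_left _)) nR)
          (inf_le_left.trans inf_le_right)) _, norms_sup nD nR⟩
    obtain ⟨R₁, d1, r1, y1, m1⟩ := key g1 n1 inf_le_left hu3
    obtain ⟨R₂, d2, r2, y2, m2⟩ := key g2 n2 inf_le_right hu2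
    have hY : PiGrp {p}ᶜ (D ⊔ (W ⊓ 𝐍(D))) :=
      (hqπ (g1.inf_left _)).sup (hWp.inf_left _) (Or.inl inf_le_right)
    have hc0 : CopAct (D ⊔ (W ⊓ 𝐍(D))) E :=
      copAct_p_right (norms_sup nD (norms_inf nW (norms_norm nD))) hY hE
    obtain ⟨R, hR, nR, hR2⟩ := hc0.exists_sylowIn_ge y2 (g2.of_le r2) m2
    obtain ⟨c, hc', hR1⟩ := hc0.sylowIn_le_cj hR nR y1 (g1.of_le r1) m1
    have hcK : c ∈ K := hK c hc'.2 (hY.piElt hc'.1)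
    obtain ⟨Q₃, h3, hR3⟩ := exists_maxInvS_ge hR.piGrp nR
    have h3' := maxInvS_cj h3 hc'.2
    have k1 : R₁ ≤ Q₁ ⊓ cj c Q₃ := le_inf r1 (hR1.trans (cj_mono c hR3))
    have k2 : R₂ ≤ Q₃ ⊓ Q₂ := le_inf (hR2.trans hR3) r2
    obtain ⟨k₁, hk₁, e₁⟩ := ih Q₁ h1 (cj c Q₃) h3'
      (by have := card_lt_of_lt' (d1.trans_le k1); omega)
    obtain ⟨k₂, hk₂, e₂⟩ := ih Q₃ h3 Q₂ h2
      (by have := card_lt_of_lt' (d2.trans_le k2); omega)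
    refine ⟨k₂ * c⁻¹ * k₁, mul_mem (mul_mem hk₂ (inv_mem hcK)) hk₁, ?_⟩
    rw [cj_mul, ← e₁, cj_mul, cj_inv_cj, e₂]

/-- The transitivity theorem. -/
theorem transitivity (hloc : ∀ T : Subgroup G, PiGrp {p} T → T ≠ ⊥ → PConstr p 𝐍(T))
    (h2 : Cl2 p (⊤ : Subgroup G)) (hE : PiGrp {p} E) (hEc : IsMulCommutative E) (hr : 3 ≤ pRank p E)
    (hfull : ∀ x ∈ 𝐂(E), PiElt {p} x → x ∈ E) (hqp : q ≠ p) :
    ∀ Q₁ ∈ maxInvSubgroups ⊤ E {q}, ∀ Q₂ ∈ maxInvSubgroups ⊤ E {q},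
      ∃ k ∈ piCoreOf {p}ᶜ 𝐂(E), Q₂ = cj k Q₁ := by
  have hS : SylowIn p E 𝐂(E) := sylowIn_of_max hE (abelian_iff.1 hEc) fun Q h1 h2 h3 =>
    le_antisymm (fun x hx => hfull x (h3 hx) (h1.piElt hx)) h2
  have hN : NormalPCompl p 𝐂(E) := hS.normalPCompl_of_cent inf_le_left
  intro Q₁ h1 Q₂ h2'
  refine trans_aux hE hr hEc hqp (fun c hc hc' => (hN.mem_iff hc).2 hc') ?_ _ Q₁ h1 Q₂ h2'
    (Nat.le_add_left _ _)
  intro u hu hu1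
  have hEu : E ≤ 𝐍(zpowers u) :=
    norms_zpowers_of_cent1 (mem_cent_iff_le_cent1.1 (abelian_iff.1 hEc hu))
  refine ⟨piCoreOf {p}ᶜ 𝐍(zpowers u), piCoreOf_piGrp _ _, hEu.trans (piCoreOf_norm _ _),
    fun X h3 h4 h5 => ?_⟩
  exact (hloc _ (hE.of_le (zpowers_le.2 hu)) (by simpa using hu1)).le_piCoreOf (h2.of_le le_top) hEu hE
    (fun x hx => hfull x hx.2) (norms_zpowers_of_cent1 h3) h4 h5

end CA.Loc
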